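import Cfsg.Agent.Lib.Offender.ZJC
import Mathlib

/-! The image of `J(G)` in `G / C_G(V)`: the structure theorem applied. -/

set_option autoImplicit false

namespace Cfsg.Agent.Lib.Offender

open Cfsg Cfsg.Agent.Lib.Core Cfsg.Agent.Lib.PLocal
open scoped commutatorElement MatrixGroups

universe u

theorem exists_quot_iso {X S : Type*} [Group X] [Group S] (f : X →* S) (hs : Function.Surjective f) (K : Subgroup X)
    (hk : f.ker = K) : ∃ hn : K.Normal, Nonempty ((X ⧸ K) ≃* S) := by
  subst hk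
  exact ⟨inferInstance, ⟨QuotientGroup.quotientKerEquivOfSurjective f hs⟩⟩

section bo

variable {p : ℕ} [hp : Fact p.Prime] {Γ M : Type*} [Group Γ] [AddCommGroup M] [Module (ZMod p) M]
variable {ρ : Γ →* Module.End (ZMod p) M}

theorem Fx_comp_subtype {H : Subgroup Γ} (B : Subgroup H) : Fx (ρ.comp H.subtype) B = Fx ρ (B.map H.subtype) := by
  ext v
  constructor
  · rintro hv _ ⟨b, hb, rfl⟩
    exact hv b hb
  · intro hv b hb
    exact hv _ ⟨b, hb, rfl⟩

theorem BO.subgroupOf {H A₀ : Subgroup Γ} (h : BO ρ A₀) (hA₀ : A₀ ≤ H) : BO (ρ.comp H.subtype) (A₀.subgroupOf H) := by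
  have hcardm : ∀ B : Subgroup H, Nat.card (B.map H.subtype) = Nat.card B := fun B =>
    Subgroup.card_map_of_injective H.subtype_injective
  refine ⟨?_, ?_, ?_⟩
  · intro B hB
    have h1 := h.le (B.map H.subtype) (map_le_of_le_subgroupOf hB)
    rw [Fx_comp_subtype, Fx_comp_subtype, map_subgroupOf_eq hA₀, ← hcardm B, ← hcardm (A₀.subgroupOf H),
      map_subgroupOf_eq hA₀]
    exact h1
  · intro a ha b hb
    exact Subtype.ext (h.comm _ (Subgroup.mem_subgroupOf.mp ha) _ (Subgroup.mem_subgroupOf.mp hb))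
  · intro a ha
    exact Subtype.ext (h.pow _ (Subgroup.mem_subgroupOf.mp ha))

end bo

variable {G : Type u} [Group G] [Finite G] {p : ℕ} [hp : Fact p.Prime]

/-- The subgroup `J̄`. -/
abbrev jbar (p : ℕ) (V : Subgroup G) [V.Normal] : Subgroup (G ⧸ Subgroup.centralizer (V : Set G)) :=
  (thompsonSubgroup p G).map (piC V)

theorem jbar_normal (V : Subgroup G) [V.Normal] : (jbar p V).Normal := by
  haveI : (thompsonSubgroup p G).Characteristic := thompson_characteristic (p := p) (G := G)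
  exact Subgroup.Normal.map inferInstance _ (QuotientGroup.mk'_surjective _)

variable {M : Type u} [AddCommGroup M] [Module (ZMod p) M] [Finite M] {V : Subgroup G} [hVn : V.Normal]
variable {ρ : G ⧸ Subgroup.centralizer (V : Set G) →* Module.End (ZMod p) M}

/-- The structure theorem for `J̄`. -/
theorem jbar_fam (hsep : IsPSolvable p G) (hV : IsElementaryAbelian p V) (hO : pCore p (G ⧸ Subgroup.centralizer (V : Set G)) = ⊥)
    (R : QReal V ρ) (hinj : Function.Injective ρ) :
    Function.Injective (ρ.comp (jbar p V).subtype) ∧ (Nat.card (pPrimeCore p ↥(jbar p V))).Coprime p ∧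
      Subgroup.centralizer (pPrimeCore p ↥(jbar p V) : Set ↥(jbar p V)) ≤ pPrimeCore p ↥(jbar p V) ∧
      Fam (ρ.comp (jbar p V).subtype) (pPrimeCore p ↥(jbar p V))
        (fun E : {E : Subgroup ↥(jbar p V) // IsE (ρ.comp (jbar p V).subtype) (pPrimeCore p ↥(jbar p V)) E} =>
          (E : Subgroup ↥(jbar p V))) := by
  have hpp : p.Prime := Fact.out
  set J₀ := jbar p V with hJ₀
  haveI hJn : J₀.Normal := jbar_normal V
  have hinj' : Function.Injective (ρ.comp J₀.subtype) := hinj.comp J₀.subtype_injective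
  have hOp := pPrimeCore_coprime p ↥J₀
  have hΓ : IsPSolvable p (G ⧸ Subgroup.centralizer (V : Set G)) :=
    Cfsg.Agent.Lib.Fusion.isPSolvable_of_surjective hpp (piC V) (QuotientGroup.mk'_surjective _) hsep
  have hJs : IsPSolvable p ↥J₀ := Cfsg.Agent.Lib.GS1.isPSolvable_subgroup hpp hΓ J₀
  have hOJ : pCore p ↥J₀ = ⊥ := by
    have h1 := map_pCore_of_normal (p := p) J₀
    rw [hO, inf_bot_eq] at h1
    exact (Subgroup.map_eq_bot_iff_of_injective _ J₀.subtype_injective).mp h1
  have hC := Cfsg.Agent.Lib.PGroup.AxLemma.centralizer_pPrimeCore_le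
    (Cfsg.Agent.Lib.PSolv.pStep_of_isPSolvable hpp hJs) hOJ
  refine ⟨hinj', hOp, hC, fam_of_gen hinj' hOp hC ?_⟩
  set T := ⨆ A : {A : Subgroup ↥J₀ // BO (ρ.comp J₀.subtype) A}, (A : Subgroup ↥J₀) with hT
  have h1 : thompsonSubgroup p G ≤ (T.map J₀.subtype).comap (piC V) := by
    apply thompson_le
    intro A hA a ha
    have hAJ : A.map (piC V) ≤ J₀ := Subgroup.map_mono (maxEA_le_thompson hA)
    have hBO := (R.bo_of_best (maxEA_bestOffender hV hA)).subgroupOf hAJ
    have h2 : (A.map (piC V)).subgroupOf J₀ ≤ T :=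
      le_iSup (fun A : {A : Subgroup ↥J₀ // BO (ρ.comp J₀.subtype) A} => (A : Subgroup ↥J₀)) ⟨_, hBO⟩
    exact ⟨⟨piC V a, hAJ ⟨a, ha, rfl⟩⟩, h2 (Subgroup.mem_subgroupOf.mpr ⟨a, ha, rfl⟩), rfl⟩
  rw [eq_top_iff]
  rintro ⟨x, hx⟩ -
  obtain ⟨j, hj, rfl⟩ := hx
  obtain ⟨y, hy, e⟩ := h1 hj
  have e2 : y = ⟨piC V j, j, hj, rfl⟩ := Subtype.ext e
  rw [← e2]
  exact hy

/-- **S0618.** -/
theorem s0618 (hsep : IsPSolvable p G) (hO : pPrimeCore p G = ⊥) (hnf : ¬ IsThompsonFactorizable p G) :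
    (p = 2 ∨ p = 3) ∧ ∃ E : Subgroup G,
      Subgroup.centralizer ((⨆ S : Sylow p G, omegaOne p ((S : Subgroup G) ⊓ Subgroup.centralizer ((S : Subgroup G) : Set G))) : Set G) ≤ E ∧
      E ≤ thompsonSubgroup p G ⊔ Subgroup.centralizer ((⨆ S : Sylow p G, omegaOne p ((S : Subgroup G) ⊓ Subgroup.centralizer ((S : Subgroup G) : Set G))) : Set G) ∧
      thompsonSubgroup p G ⊔ Subgroup.centralizer ((⨆ S : Sylow p G, omegaOne p ((S : Subgroup G) ⊓ Subgroup.centralizer ((S : Subgroup G) : Set G))) : Set G) ≤ Subgroup.normalizer (E : Set G) ∧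
      ∃ hn : ((Subgroup.centralizer ((⨆ S : Sylow p G, omegaOne p ((S : Subgroup G) ⊓ Subgroup.centralizer ((S : Subgroup G) : Set G))) : Set G)).subgroupOf E).Normal,
        Nonempty ((↥E ⧸ (Subgroup.centralizer ((⨆ S : Sylow p G, omegaOne p ((S : Subgroup G) ⊓ Subgroup.centralizer ((S : Subgroup G) : Set G))) : Set G)).subgroupOf E) ≃* SL(2, ZMod p)) := by
  have hpp : p.Prime := Fact.out
  have hcent : Subgroup.centralizer ((⨆ S : Sylow p G, omegaOne p ((S : Subgroup G) ⊓ Subgroup.centralizer ((S : Subgroup G) : Set G))) : Set G) =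
      Subgroup.centralizer ((sylowOmega p G : Subgroup G) : Set G) := by
    apply le_antisymm
    · intro x hx
      rw [Subgroup.mem_centralizer_iff]
      intro v hv
      have h1 : sylowOmega p G ≤ Subgroup.centralizer ({x} : Set G) := by
        apply iSup_le
        intro S y hy
        rw [Subgroup.mem_centralizer_iff]
        rintro _ rfl
        exact (Subgroup.mem_centralizer_iff.mp hx y (Set.mem_iUnion.mpr ⟨S, hy⟩)).symm
      exact (Subgroup.mem_centralizer_iff.mp (h1 hv) x rfl).symm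
    · apply Subgroup.centralizer_le
      rintro y hy
      obtain ⟨S, hS⟩ := Set.mem_iUnion.mp hy
      exact omega_le_sylowOmega S hS
  rw [hcent]
  haveI hVn : (sylowOmega p G).Normal := sylowOmega_normal
  set V := sylowOmega p G with hVdef
  have hcp := Cfsg.Agent.Lib.PSolv.centralizer_pCore_le (Cfsg.Agent.Lib.PSolv.pStep_of_isPSolvable hpp hsep) hO
  have hV : IsElementaryAbelian p V := sylowOmega_ea hcp
  have hOq : pCore p (G ⧸ Subgroup.centralizer (V : Set G)) = ⊥ := pCore_quotient_centralizer_sylowOmega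
  obtain ⟨M, _, _, _, ρ, hinj, ⟨R⟩⟩ := exists_qreal V hV
  obtain ⟨hinj', hOp, hC, hFam⟩ := jbar_fam hsep hV hOq R hinj
  -- a nontrivial element
  have hJnot : ¬ thompsonSubgroup p G ≤ Subgroup.centralizer (V : Set G) := fun h => hnf ((thompsonFactorizable_iff hO).mpr h)
  obtain ⟨j, hj, hjC⟩ := SetLike.not_le_iff_exists.mp hJnot
  have hj1 : piC V j ≠ 1 := by
    intro h
    apply hjC
    rw [← ker_piC]
    exact h
  have hne : Nonempty {E : Subgroup ↥(jbar p V) // IsE (ρ.comp (jbar p V).subtype) (pPrimeCore p ↥(jbar p V)) E} := by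
    by_contra hno
    rw [not_nonempty_iff] at hno
    have h1 := hFam.sup
    rw [iSup_of_empty] at h1
    have h2 : (⟨piC V j, j, hj, rfl⟩ : ↥(jbar p V)) ∈ (⊥ : Subgroup ↥(jbar p V)) := by
      rw [h1]
      trivial
    rw [Subgroup.mem_bot] at h2
    exact hj1 (congrArg Subtype.val h2)
  obtain ⟨⟨E₁, hE₁⟩⟩ := hne
  obtain ⟨φ⟩ := hE₁.iso
  refine ⟨hE₁.prime hinj' hOp, ?_⟩
  set E₁' := E₁.map (jbar p V).subtype with hE₁'
  have hE₁J : E₁' ≤ jbar p V := Subgroup.map_subtype_le _
  have hker : ∀ x : G, x ∈ Subgroup.centralizer (V : Set G) ↔ piC V x = 1 := fun x => by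
    rw [← MonoidHom.mem_ker, ker_piC]
  refine ⟨E₁'.comap (piC V), ?_, ?_, ?_, ?_⟩
  · intro x hx
    show piC V x ∈ E₁'
    rw [(hker x).mp hx]
    exact one_mem _
  · intro x hx
    obtain ⟨y, hy, e⟩ := hE₁J hx
    have e2 : y⁻¹ * x ∈ Subgroup.centralizer (V : Set G) := by
      rw [hker, map_mul, map_inv, e, inv_mul_cancel]
    have e3 : x = y * (y⁻¹ * x) := by group
    rw [e3]
    exact mul_mem ((le_sup_left : thompsonSubgroup p G ≤ _) hy) ((le_sup_right : Subgroup.centralizer (V : Set G) ≤ _) e2)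
  · have hmemJ : ∀ g ∈ thompsonSubgroup p G ⊔ Subgroup.centralizer (V : Set G), piC V g ∈ jbar p V := by
      intro g hg
      have h1 : thompsonSubgroup p G ⊔ Subgroup.centralizer (V : Set G) ≤ (jbar p V).comap (piC V) := by
        apply sup_le
        · intro x hx
          exact ⟨x, hx, rfl⟩
        · intro x hx
          show piC V x ∈ jbar p V
          rw [(hker x).mp hx]
          exact one_mem _
      exact h1 hg
    have key : ∀ g ∈ thompsonSubgroup p G ⊔ Subgroup.centralizer (V : Set G), ∀ e ∈ E₁'.comap (piC V), g * e * g⁻¹ ∈ E₁'.comap (piC V) := by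
      intro g hg e he
      obtain ⟨e₁, he₁, he⟩ := he
      have h1 := hFam.le_normalizer hinj' hOp ⟨E₁, hE₁⟩ ⟨piC V g, hmemJ g hg⟩
      rw [Subgroup.mem_normalizer_iff] at h1
      have h2 := (h1 e₁).mp he₁
      refine ⟨_, h2, ?_⟩
      simp only [Subgroup.coe_subtype, Subgroup.coe_mul, Subgroup.coe_inv] at he ⊢
      rw [map_mul, map_mul, map_inv, he]
    intro g hg
    rw [Subgroup.mem_normalizer_iff]
    intro e
    constructor
    · exact key g hg e
    · intro he
      have h3 := key g⁻¹ (inv_mem hg) _ he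
      simpa [mul_assoc] using h3
  · -- the isomorphism
    set E := E₁'.comap (piC V) with hE
    let f₀ : ↥E →* ↥E₁' := ((piC V).comp E.subtype).codRestrict E₁' (fun e => e.2)
    let e₀ : ↥E₁ ≃* ↥E₁' := Subgroup.equivMapOfInjective E₁ _ (jbar p V).subtype_injective
    let f : ↥E →* SL(2, ZMod p) := (φ.toMonoidHom.comp e₀.symm.toMonoidHom).comp f₀
    have hf₀s : Function.Surjective f₀ := by
      rintro ⟨x, hx⟩
      obtain ⟨g, rfl⟩ := QuotientGroup.mk'_surjective _ x
      exact ⟨⟨g, hx⟩, rfl⟩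
    have hfs : Function.Surjective f := by
      intro x
      obtain ⟨y, hy⟩ := hf₀s (e₀ (φ.symm x))
      refine ⟨y, ?_⟩
      show φ (e₀.symm (f₀ y)) = x
      rw [hy, e₀.symm_apply_apply, φ.apply_symm_apply]
    apply exists_quot_iso f hfs
    ext e
    rw [MonoidHom.mem_ker, Subgroup.mem_subgroupOf, hker]
    constructor
    · intro h
      have h1 : e₀.symm (f₀ e) = 1 := φ.injective (by rw [map_one]; exact h)
      have h2 : f₀ e = 1 := e₀.symm.injective (by rw [map_one]; exact h1)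
      exact congrArg Subtype.val h2
    · intro h
      have h2 : f₀ e = 1 := Subtype.ext h
      show φ (e₀.symm (f₀ e)) = 1
      rw [h2, map_one, map_one]

end Cfsg.Agent.Lib.Offender
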