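import Cfsg.Agent.Lib.Offender.Stmt3
import Cfsg.Agent.Lib.Subnormal.Join
import Cfsg.Agent.Lib.Core.Subnormal
import Mathlib

/-! Two subnormal subgroups acting irreducibly on incomparable commutator modules. -/

set_option autoImplicit false

namespace Cfsg.Agent.Lib.Offender

open Cfsg Cfsg.Agent.Lib.Subnormal
open Cfsg.Agent.Lib.FF (mem_conj_iff conj_mul_conj conj_one' card_conj conj_eq_of_mem)
open scoped commutatorElement

variable {p : ℕ} [hp : Fact p.Prime] {Γ M : Type*} [Group Γ] [AddCommGroup M] [Module (ZMod p) M]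
variable {ρ : Γ →* Module.End (ZMod p) M}

/-- Conjugate of a subgroup. -/
abbrev cj (g : Γ) (A : Subgroup Γ) : Subgroup Γ := A.map (MulAut.conj g).toMonoidHom

theorem cj_one (B : Subgroup Γ) : cj 1 B = B := conj_one' B

/-- The irreducibility condition. -/
def Irr (ρ : Γ →* Module.End (ZMod p) M) (A : Subgroup Γ) : Prop :=
  ∀ S : Submodule (ZMod p) M, S ≤ Cm ρ A → (∀ a ∈ A, ∀ s ∈ S, ρ a s ∈ S) → S = ⊥ ∨ S = Cm ρ A

/-- No nontrivial subnormal `p`-subgroups. -/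
def NoP (p : ℕ) (K : Subgroup Γ) : Prop := ∀ P : Subgroup Γ, SN K P → IsPGroup p P → P = ⊥

theorem NoP.of_sn {K L : Subgroup Γ} (h : NoP p K) (hL : SN K L) : NoP p L := fun P hP hPp => h P (hL.trans hP) hPp

/-- The linear equivalence of a group element. -/
def rhoE (ρ : Γ →* Module.End (ZMod p) M) (g : Γ) : M ≃ₗ[ZMod p] M :=
  LinearEquiv.ofLinearMap (ρ g) (ρ g⁻¹) (LinearMap.ext fun v => rho_apply_inv g v) (LinearMap.ext fun v => rho_inv_apply g v)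

theorem rhoE_apply (g : Γ) (v : M) : rhoE ρ g v = ρ g v := rfl

theorem map_rho_eq (g : Γ) (S : Submodule (ZMod p) M) : S.map (ρ g) = S.map ((rhoE ρ g : M ≃ₗ[ZMod p] M) : M →ₗ[ZMod p] M) := rfl

theorem finrank_map_rho (g : Γ) (S : Submodule (ZMod p) M) : Module.finrank (ZMod p) (S.map (ρ g)) = Module.finrank (ZMod p) S := by
  rw [map_rho_eq]
  exact LinearEquiv.finrank_map_eq (rhoE ρ g) S

/-- Elements normalizing a subgroup preserve its commutator module. -/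
theorem Cm_pres {B : Subgroup Γ} {b : Γ} (h : ∀ y ∈ B, b * y * b⁻¹ ∈ B) {z : M} (hz : z ∈ Cm ρ B) : ρ b z ∈ Cm ρ B := by
  have h1 : Cm ρ B ≤ (Cm ρ B).comap (ρ b) := by
    apply Cm_le
    intro y hy v
    show ρ b (ρ y v - v) ∈ Cm ρ B
    have e : ρ b (ρ y v - v) = ρ (b * y * b⁻¹) (ρ b v) - ρ b v := by
      rw [map_sub, rho_mul, rho_mul, rho_inv_apply]
    rw [e]
    exact mem_Cm (h y hy) _
  exact h1 hz

theorem Cm_self_pres {B : Subgroup Γ} {b : Γ} (hb : b ∈ B) {z : M} (hz : z ∈ Cm ρ B) : ρ b z ∈ Cm ρ B :=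
  Cm_pres (fun _ hy => mul_mem (mul_mem hb hy) (inv_mem hb)) hz

theorem Cm_cj (g : Γ) (A : Subgroup Γ) : Cm ρ (cj g A) = (Cm ρ A).map (ρ g) := by
  apply le_antisymm
  · apply Cm_le
    rintro _ ⟨a, ha, rfl⟩ v
    refine ⟨ρ a (ρ g⁻¹ v) - ρ g⁻¹ v, mem_Cm ha _, ?_⟩
    show ρ g (ρ a (ρ g⁻¹ v) - ρ g⁻¹ v) = ρ (g * a * g⁻¹) v - v
    rw [map_sub, rho_apply_inv, rho_mul, rho_mul]
  · rintro _ ⟨z, hz, rfl⟩
    have h1 : Cm ρ A ≤ (Cm ρ (cj g A)).comap (ρ g) := by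
      apply Cm_le
      intro a ha v
      show ρ g (ρ a v - v) ∈ Cm ρ (cj g A)
      have e : ρ g (ρ a v - v) = ρ (g * a * g⁻¹) (ρ g v) - ρ g v := by
        rw [map_sub, rho_mul, rho_mul, rho_inv_apply]
      rw [e]
      exact mem_Cm (⟨a, ha, rfl⟩ : g * a * g⁻¹ ∈ cj g A) _
    exact h1 hz

theorem finrank_Cm_cj (g : Γ) (A : Subgroup Γ) : Module.finrank (ZMod p) (Cm ρ (cj g A)) = Module.finrank (ZMod p) (Cm ρ A) := by
  rw [Cm_cj, finrank_map_rho]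

theorem Irr.cj {A : Subgroup Γ} (h : Irr ρ A) (g : Γ) : Irr ρ (cj g A) := by
  intro S hS hinv
  have hS' : S.map (ρ g⁻¹) ≤ Cm ρ A := by
    rintro _ ⟨s, hs, rfl⟩
    have h1 := hS hs
    rw [Cm_cj] at h1
    obtain ⟨z, hz, rfl⟩ := h1
    show ρ g⁻¹ (ρ g z) ∈ _
    rw [rho_inv_apply]
    exact hz
  have hinv' : ∀ a ∈ A, ∀ s ∈ S.map (ρ g⁻¹), ρ a s ∈ S.map (ρ g⁻¹) := by
    rintro a ha _ ⟨s, hs, rfl⟩
    have h1 := hinv (g * a * g⁻¹) ⟨a, ha, rfl⟩ s hs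
    refine ⟨_, h1, ?_⟩
    show ρ g⁻¹ (ρ (g * a * g⁻¹) s) = ρ a (ρ g⁻¹ s)
    rw [rho_mul, rho_mul, rho_inv_apply]
  have hback : ∀ S : Submodule (ZMod p) M, (S.map (ρ g⁻¹)).map (ρ g) = S := by
    intro S
    rw [← Submodule.map_comp]
    have e : (ρ g) ∘ₗ (ρ g⁻¹) = LinearMap.id := LinearMap.ext fun v => rho_apply_inv g v
    rw [e, Submodule.map_id]
  rcases h _ hS' hinv' with h1 | h1
  · left
    rw [← hback S, h1, Submodule.map_bot]
  · right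
    rw [← hback S, h1, Cm_cj]

section finiteG

variable [Finite Γ]

/-- Quadratic elements have order dividing `p`. -/
theorem pow_of_quad (hinj : Function.Injective ρ) {b : Γ} (h : ∀ v, ρ b (ρ b v - v) = ρ b v - v) : b ^ p = 1 := by
  have key : ∀ (n : ℕ) (v : M), ρ (b ^ n) v = v + n • (ρ b v - v) := by
    intro n
    induction n with
    | zero =>
      intro v
      simp [rho_one]
    | succ n ih =>
      intro v
      have e : ρ b (ρ b v) - ρ b v = ρ b v - v := by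
        rw [← map_sub]
        exact h v
      rw [pow_succ, rho_mul, ih, e, succ_nsmul]
      abel
  apply hinj
  rw [map_one]
  apply LinearMap.ext
  intro v
  rw [key, p_smul_eq_zero, add_zero]
  rfl

theorem isPGroup_of_quad (hinj : Function.Injective ρ) {P : Subgroup Γ}
    (h : ∀ b ∈ P, ∀ v, ρ b (ρ b v - v) = ρ b v - v) : IsPGroup p P := by
  intro x
  refine ⟨1, Subtype.ext ?_⟩
  rw [pow_one]
  simpa using pow_of_quad hinj (h x x.2)

theorem normalizer_of_conj {S : Subgroup Γ} {g : Γ} (h : ∀ x ∈ S, g * x * g⁻¹ ∈ S) (h' : ∀ x ∈ S, g⁻¹ * x * g ∈ S) :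
    g ∈ Subgroup.normalizer (S : Set Γ) := by
  rw [Subgroup.mem_normalizer_iff]
  intro x
  refine ⟨h x, fun hx => ?_⟩
  have := h' _ hx
  simpa [mul_assoc] using this

/-- A subnormal subgroup acts faithfully on its commutator module. -/
theorem faith (hinj : Function.Injective ρ) {K A : Subgroup Γ} (hK : NoP p K) (hA : SN K A) {a : Γ} (ha : a ∈ A)
    (h : ∀ z ∈ Cm ρ A, ρ a z = z) : a = 1 := by
  set A₀ := A ⊓ Fix ρ (Cm ρ A) with hA₀
  have hconj : ∀ x ∈ A, ∀ y ∈ A₀, x * y * x⁻¹ ∈ A₀ := by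
    intro x hx y hy
    refine Subgroup.mem_inf.mpr ⟨mul_mem (mul_mem hx hy.1) (inv_mem hx), ?_⟩
    intro z hz
    rw [rho_mul, rho_mul, (show ρ y (ρ x⁻¹ z) = ρ x⁻¹ z from hy.2 _ (Cm_self_pres (inv_mem hx) hz)), rho_apply_inv]
  have hsn : SN A A₀ := SN.of_normal inf_le_left (fun x hx =>
    normalizer_of_conj (hconj x hx) (fun y hy => by simpa using hconj x⁻¹ (inv_mem hx) y hy))
  have hpg : IsPGroup p A₀ := by
    apply isPGroup_of_quad hinj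
    intro b hb v
    exact hb.2 _ (mem_Cm hb.1 v)
  have h0 := hK A₀ (hA.trans hsn) hpg
  have h1 : a ∈ A₀ := Subgroup.mem_inf.mpr ⟨ha, h⟩
  rw [h0] at h1
  exact h1

/-- A commuting group with disjoint commutator module acts trivially. -/
theorem fix_of_comm {B₁ B₂ : Subgroup Γ} (hc : ∀ x ∈ B₁, ∀ y ∈ B₂, x * y = y * x) (hd : Cm ρ B₁ ⊓ Cm ρ B₂ = ⊥) {b : Γ} (hb : b ∈ B₁)
    {z : M} (hz : z ∈ Cm ρ B₂) : ρ b z = z := by
  have h1 : ρ b z ∈ Cm ρ B₂ := Cm_pres (fun y hy => by rw [hc b hb y hy, mul_inv_cancel_right]; exact hy) hz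
  have h2 : ρ b z - z ∈ Cm ρ B₁ ⊓ Cm ρ B₂ := ⟨mem_Cm hb z, sub_mem h1 hz⟩
  rw [hd] at h2
  exact sub_eq_zero.mp h2

/-- **The normal case.** -/
theorem nlem (hinj : Function.Injective ρ) {K A B : Subgroup Γ} (hK : NoP p K) (hAK : A ≤ K) (hBK : B ≤ K) (hIA : Irr ρ A)
    {M₀ : Submodule (ZMod p) M} (hinv : ∀ k ∈ K, ∀ z ∈ M₀, ρ k z ∈ M₀) (hBM : Cm ρ B ≤ M₀) (hAM : ¬ Cm ρ A ≤ M₀) :
    (∀ a ∈ A, ∀ b ∈ B, a * b = b * a) ∧ Cm ρ A ⊓ M₀ = ⊥ := by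
  have hcap : Cm ρ A ⊓ M₀ = ⊥ := by
    rcases hIA _ inf_le_left (fun a ha s hs => ⟨Cm_self_pres ha hs.1, hinv a (hAK ha) s hs.2⟩) with h1 | h1
    · exact h1
    · exact absurd (inf_eq_left.mp h1) hAM
  refine ⟨?_, hcap⟩
  have hAfix : ∀ a ∈ A, ∀ z ∈ M₀, ρ a z = z := by
    intro a ha z hz
    have h2 : ρ a z - z ∈ Cm ρ A ⊓ M₀ := ⟨mem_Cm ha z, sub_mem (hinv a (hAK ha) z hz) hz⟩
    rw [hcap] at h2
    exact sub_eq_zero.mp h2
  set T := K ⊓ (Fix ρ M₀ ⊓ DFix ρ M₀) with hT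
  have hconj : ∀ x ∈ K, ∀ y ∈ T, x * y * x⁻¹ ∈ T := by
    rintro x hx y ⟨hyK, hyF, hyD⟩
    refine Subgroup.mem_inf.mpr ⟨mul_mem (mul_mem hx hyK) (inv_mem hx), Subgroup.mem_inf.mpr ⟨?_, ?_⟩⟩
    · intro z hz
      rw [rho_mul, rho_mul, (show ρ y (ρ x⁻¹ z) = ρ x⁻¹ z from hyF _ (hinv _ (inv_mem hx) z hz)), rho_apply_inv]
    · intro v
      have e : ρ (x * y * x⁻¹) v - v = ρ x (ρ y (ρ x⁻¹ v) - ρ x⁻¹ v) := by
        rw [map_sub, rho_apply_inv, rho_mul, rho_mul]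
      rw [e]
      exact hinv x hx _ (hyD _)
  have hsn : SN K T := SN.of_normal inf_le_left (fun x hx =>
    normalizer_of_conj (hconj x hx) (fun y hy => by simpa using hconj x⁻¹ (inv_mem hx) y hy))
  have hpg : IsPGroup p T := by
    apply isPGroup_of_quad hinj
    rintro b ⟨-, hbF, hbD⟩ v
    exact hbF _ (hbD v)
  have h0 := hK T hsn hpg
  intro a ha b hb
  have h1 : ⁅a, b⁆ ∈ T := by
    refine Subgroup.mem_inf.mpr ⟨?_, Subgroup.mem_inf.mpr ⟨?_, ?_⟩⟩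
    · rw [commutatorElement_def]
      exact mul_mem (mul_mem (mul_mem (hAK ha) (hBK hb)) (inv_mem (hAK ha))) (inv_mem (hBK hb))
    · have e : ⁅a, b⁆ = a * (b * a⁻¹ * b⁻¹) := by
        rw [commutatorElement_def]
        group
      rw [e]
      refine mul_mem (fun z hz => hAfix a ha z hz) ?_
      intro z hz
      rw [rho_mul, rho_mul, (show ρ a⁻¹ (ρ b⁻¹ z) = ρ b⁻¹ z from rho_eq_of_eq_inv (hAfix a ha _ (hinv _ (inv_mem (hBK hb)) z hz))),
        rho_apply_inv]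
    · have e : ⁅a, b⁆ = (a * b * a⁻¹) * b⁻¹ := by
        rw [commutatorElement_def]
      rw [e]
      have hbD : ∀ v, ρ b v - v ∈ M₀ := fun v => hBM (mem_Cm hb v)
      refine mul_mem ?_ (inv_mem (show b ∈ DFix ρ M₀ from hbD))
      intro v
      have e2 : ρ (a * b * a⁻¹) v - v = ρ a (ρ b (ρ a⁻¹ v) - ρ a⁻¹ v) := by
        rw [map_sub, rho_apply_inv, rho_mul, rho_mul]
      rw [e2, hAfix a ha _ (hbD _)]
      exact hbD _
  rw [h0, Subgroup.mem_bot, commutatorElement_eq_one_iff_mul_comm] at h1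
  exact h1

/-- The alternative for conjugates. -/
def Alt (ρ : Γ →* Module.End (ZMod p) M) (K B : Subgroup Γ) : Prop :=
  ∀ g ∈ K, ∀ g' ∈ K, Cm ρ (cj g B) = Cm ρ (cj g' B) ∨
    ((∀ x ∈ cj g B, ∀ y ∈ cj g' B, x * y = y * x) ∧ Cm ρ (cj g B) ⊓ Cm ρ (cj g' B) = ⊥)

theorem SN.cj_of_mem {K A : Subgroup Γ} (hA : SN K A) {g : Γ} (hg : g ∈ K) : SN K (cj g A) := by
  have h1 := hA.conj g
  rwa [conj_eq_of_mem hg] at h1

theorem cj_le_of_mem {K A : Subgroup Γ} (hA : A ≤ K) {g : Γ} (hg : g ∈ K) : cj g A ≤ K := by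
  rintro _ ⟨a, ha, rfl⟩
  exact mul_mem (mul_mem hg (hA ha)) (inv_mem hg)

section rank

variable [Finite M]

/-- An element moving the commutator module gives a rank inequality. -/
theorem moved_rank {K B F : Subgroup Γ} (hX : Alt ρ K B) {f : Γ} (hfK : f ∈ K) (hfF : f ∈ F) {x₀ : M}
    (hx₀ : x₀ ∈ Cm ρ B) (hmv : ρ f x₀ ∉ Cm ρ B) :
    ((∀ x ∈ cj f B, ∀ y ∈ B, x * y = y * x) ∧ Cm ρ (cj f B) ⊓ Cm ρ B = ⊥) ∧
      (∀ x ∈ Cm ρ B, ρ f x - x = 0 → x = 0) ∧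
      Module.finrank (ZMod p) ((Cm ρ B).map (ρ f - 1)) = Module.finrank (ZMod p) (Cm ρ B) ∧
      (Cm ρ B).map (ρ f - 1) ≤ Cm ρ F ∧ Module.finrank (ZMod p) (Cm ρ B) ≤ Module.finrank (ZMod p) (Cm ρ F) := by
  haveI : Module.Finite (ZMod p) M := Module.Finite.of_finite
  have halt := hX f hfK 1 (one_mem _)
  rw [cj_one] at halt
  have hne : Cm ρ (cj f B) ≠ Cm ρ B := by
    intro h0
    apply hmv
    rw [← h0, Cm_cj]
    exact ⟨x₀, hx₀, rfl⟩
  have h1 := halt.resolve_left hne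
  have hinj : ∀ x ∈ Cm ρ B, ρ f x - x = 0 → x = 0 := by
    intro x hx h0
    have h2 : x ∈ Cm ρ (cj f B) ⊓ Cm ρ B := by
      refine ⟨?_, hx⟩
      rw [Cm_cj]
      exact ⟨x, hx, sub_eq_zero.mp h0⟩
    rw [h1.2] at h2
    exact h2
  have hrank : Module.finrank (ZMod p) ((Cm ρ B).map (ρ f - 1)) = Module.finrank (ZMod p) (Cm ρ B) := by
    have hinj' : Function.Injective ((ρ f - 1).domRestrict (Cm ρ B)) := by
      rw [injective_iff_map_eq_zero]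
      rintro ⟨x, hx⟩ h0
      exact Subtype.ext (hinj x hx h0)
    rw [← LinearMap.finrank_range_of_inj hinj', LinearMap.range_domRestrict]
  have hle : (Cm ρ B).map (ρ f - 1) ≤ Cm ρ F := by
    rintro _ ⟨x, -, rfl⟩
    exact mem_Cm hfF x
  refine ⟨h1, hinj, hrank, hle, ?_⟩
  rw [← hrank]
  exact Submodule.finrank_mono hle

/-- **The final configuration is impossible.** -/
theorem config (hinj : Function.Injective ρ) {K A B : Subgroup Γ} (hK : NoP p K) (hA : SN K A) (hB : SN K B)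
    (hbA : 2 < Nat.card A) (hbB : 2 < Nat.card B) (hXa : Alt ρ K B) (hYa : Alt ρ K A) {g f : Γ} (hg : g ∈ K) (hf : f ∈ cj g A)
    {x₀ : M} (hx₀ : x₀ ∈ Cm ρ B) (hmv : ρ f x₀ ∉ Cm ρ B) {g' f' : Γ} (hg' : g' ∈ K) (hf' : f' ∈ cj g' B) {y₀ : M}
    (hy₀ : y₀ ∈ Cm ρ A) (hmv' : ρ f' y₀ ∉ Cm ρ A) : False := by
  classical
  haveI : Module.Finite (ZMod p) M := Module.Finite.of_finite
  have hfK : f ∈ K := cj_le_of_mem hA.le hg hf
  have hf'K : f' ∈ K := cj_le_of_mem hB.le hg' hf'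
  obtain ⟨⟨hcomm, hcap⟩, hψinj, hrank, hle, hd₁⟩ := moved_rank hXa hfK hf hx₀ hmv
  obtain ⟨-, -, -, -, hd₂⟩ := moved_rank hYa hf'K hf' hy₀ hmv'
  rw [finrank_Cm_cj] at hd₁ hd₂
  have hd : Module.finrank (ZMod p) (Cm ρ A) = Module.finrank (ZMod p) (Cm ρ B) := le_antisymm hd₂ hd₁
  set X₁ := Cm ρ B with hX₁
  set X₂ := Cm ρ (cj f B) with hX₂
  set F := cj g A with hF
  set Y := Cm ρ F with hY
  have hdY : Module.finrank (ZMod p) Y = Module.finrank (ZMod p) X₁ := by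
    rw [hY, hF, finrank_Cm_cj, hd]
  have hdX₂ : Module.finrank (ZMod p) X₂ = Module.finrank (ZMod p) X₁ := by
    rw [hX₂, finrank_Cm_cj]
  have hmap : X₁.map (ρ f - 1) = Y := Submodule.eq_of_le_of_finrank_le hle (by rw [hrank, hdY])
  have hfX₂ : ∀ x ∈ X₁, ρ f x ∈ X₂ := by
    intro x hx
    rw [hX₂, Cm_cj]
    exact ⟨x, hx, rfl⟩
  have hYX₁ : ∀ y, y ∈ Y → y ∈ X₁ → y = 0 := by
    intro y hy hy₁
    rw [← hmap] at hy
    obtain ⟨x, hx, rfl⟩ := hy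
    have hy₂ : (ρ f - 1) x = ρ f x - x := rfl
    have h1 : ρ f x ∈ X₂ ⊓ X₁ := by
      refine ⟨hfX₂ x hx, ?_⟩
      have e : ρ f x = (ρ f - 1) x + x := by rw [hy₂]; abel
      rw [e]
      exact add_mem hy₁ hx
    rw [hcap] at h1
    have h2 : ρ f x = 0 := h1
    have h3 : x = 0 := by
      have := rho_inv_apply (ρ := ρ) f x
      rw [h2, map_zero] at this
      exact this.symm
    rw [h3, map_zero]
  have hbfix : ∀ b ∈ B, ∀ z ∈ X₂, ρ b z = z := by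
    intro b hb z hz
    refine fix_of_comm (B₁ := B) (B₂ := cj f B) (fun x hx y hy => (hcomm y hy x hx).symm) ?_ hb hz
    rw [inf_comm]
    exact hcap
  have hbY : ∀ b ∈ B, (∀ y ∈ Y, ρ b y ∈ Y) → b = 1 := by
    intro b hb hbY
    apply faith hinj hK hB hb
    intro x hx
    have hy : ρ f x - x ∈ Y := by
      rw [← hmap]
      exact ⟨x, hx, rfl⟩
    have h1 := hbY _ hy
    rw [map_sub, hbfix b hb _ (hfX₂ x hx)] at h1
    have h2 : ρ b x - x = (ρ f x - x) - (ρ f x - ρ b x) := by abel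
    have h3 : ρ b x - x ∈ Y := by
      rw [h2]
      exact sub_mem hy h1
    exact sub_eq_zero.mp (hYX₁ _ h3 (mem_Cm hb x))
  -- three elements
  obtain ⟨b₁, hb₁, b₂, hb₂, hb₁1, hb₂1, hb₁₂⟩ : ∃ b₁ ∈ B, ∃ b₂ ∈ B, b₁ ≠ 1 ∧ b₂ ≠ 1 ∧ b₁ ≠ b₂ := by
    haveI := Fintype.ofFinite ↥B
    rw [Nat.card_eq_fintype_card, Fintype.two_lt_card_iff] at hbB
    obtain ⟨a, b, c, hab, hac, hbc⟩ := hbB
    refine ⟨a⁻¹ * b, mul_mem (inv_mem a.2) b.2, a⁻¹ * c, mul_mem (inv_mem a.2) c.2, ?_, ?_, ?_⟩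
    · intro h
      apply hab
      apply Subtype.ext
      have := inv_mul_eq_one.mp h
      exact this
    · intro h
      apply hac
      apply Subtype.ext
      exact inv_mul_eq_one.mp h
    · intro h
      apply hbc
      apply Subtype.ext
      exact mul_left_cancel h
  have hBK := hB.le
  have hcjb : ∀ b, Cm ρ (cj (b * g) A) = Y.map (ρ b) := by
    intro b
    rw [hY, hF, ← Cm_cj, cj, cj, conj_mul_conj]
  set Y₁ := Cm ρ (cj (b₁ * g) A) with hY₁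
  set Y₂ := Cm ρ (cj (b₂ * g) A) with hY₂
  have hne01 : Y ≠ Y₁ := by
    intro h0
    apply hb₁1
    apply hbY b₁ hb₁
    intro y hy
    rw [h0, hY₁, hcjb]
    exact ⟨y, hy, rfl⟩
  have hne02 : Y ≠ Y₂ := by
    intro h0
    apply hb₂1
    apply hbY b₂ hb₂
    intro y hy
    rw [h0, hY₂, hcjb]
    exact ⟨y, hy, rfl⟩
  have hne12 : Y₁ ≠ Y₂ := by
    intro h0
    have h1 : b₂⁻¹ * b₁ = 1 := by
      apply hbY _ (mul_mem (inv_mem hb₂) hb₁)
      intro y hy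
      have h2 : ρ b₁ y ∈ Y₁ := by
        rw [hY₁, hcjb]
        exact ⟨y, hy, rfl⟩
      rw [h0, hY₂, hcjb] at h2
      obtain ⟨y', hy', e⟩ := h2
      rw [rho_mul]
      have e2 : ρ b₁ y = ρ b₂ y' := e.symm
      rw [e2, rho_inv_apply]
      exact hy'
    exact hb₁₂ (inv_mul_eq_one.mp h1).symm
  have hgb₁ : b₁ * g ∈ K := mul_mem (hBK hb₁) hg
  have hgb₂ : b₂ * g ∈ K := mul_mem (hBK hb₂) hg
  have c01 := (hYa g hg (b₁ * g) hgb₁).resolve_left hne01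
  have c02 := (hYa g hg (b₂ * g) hgb₂).resolve_left hne02
  have c12 := (hYa (b₁ * g) hgb₁ (b₂ * g) hgb₂).resolve_left hne12
  have hdY₁ : Module.finrank (ZMod p) Y₁ = Module.finrank (ZMod p) X₁ := by
    rw [hY₁, finrank_Cm_cj, hd]
  have hsupY : Module.finrank (ZMod p) ↥(Y ⊔ Y₁) = Module.finrank (ZMod p) X₁ + Module.finrank (ZMod p) X₁ := by
    have h1 := Submodule.finrank_sup_add_finrank_inf_eq Y Y₁
    rw [c01.2, finrank_bot, add_zero, hdY, hdY₁] at h1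
    exact h1
  have hsupX : Module.finrank (ZMod p) ↥(X₁ ⊔ X₂) ≤ Module.finrank (ZMod p) X₁ + Module.finrank (ZMod p) X₁ := by
    have h1 := Submodule.finrank_add_le_finrank_add_finrank X₁ X₂
    rwa [hdX₂] at h1
  have hYle : Y ≤ X₁ ⊔ X₂ := by
    rw [← hmap]
    rintro _ ⟨x, hx, rfl⟩
    have e : (ρ f - 1) x = -x + ρ f x := by
      show ρ f x - x = _
      abel
    rw [e]
    exact Submodule.add_mem_sup (neg_mem hx) (hfX₂ x hx)
  have hbsup : ∀ b ∈ B, ∀ v ∈ X₁ ⊔ X₂, ρ b v ∈ X₁ ⊔ X₂ := by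
    intro b hb v hv
    obtain ⟨a, ha, c, hc, rfl⟩ := Submodule.mem_sup.mp hv
    rw [map_add, hbfix b hb c hc]
    exact Submodule.add_mem_sup (Cm_self_pres hb ha) hc
  have hYble : ∀ b ∈ B, Cm ρ (cj (b * g) A) ≤ X₁ ⊔ X₂ := by
    intro b hb
    rw [hcjb]
    rintro _ ⟨y, hy, rfl⟩
    exact hbsup b hb y (hYle hy)
  have hsupeq : Y ⊔ Y₁ = X₁ ⊔ X₂ :=
    Submodule.eq_of_le_of_finrank_le (sup_le hYle (hYble b₁ hb₁)) (by rw [hsupY]; exact hsupX)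
  have hY₂le : Y₂ ≤ Y ⊔ Y₁ := by
    rw [hsupeq]
    exact hYble b₂ hb₂
  have hF₂ : SN K (cj (b₂ * g) A) := SN.cj_of_mem hA hgb₂
  have hc1 : ∀ c ∈ cj (b₂ * g) A, c = 1 := by
    intro c hc
    apply faith hinj hK hF₂ hc
    intro z hz
    obtain ⟨a, ha, b, hb, rfl⟩ := Submodule.mem_sup.mp (hY₂le hz)
    rw [map_add, fix_of_comm (B₁ := cj (b₂ * g) A) (B₂ := F) (fun x hx y hy => (c02.1 y hy x hx).symm)
      (by rw [inf_comm]; exact c02.2) hc ha,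
      fix_of_comm (B₁ := cj (b₂ * g) A) (B₂ := cj (b₁ * g) A) (fun x hx y hy => (c12.1 y hy x hx).symm)
      (by rw [inf_comm]; exact c12.2) hc hb]
  have hbot : cj (b₂ * g) A = ⊥ := by
    rw [eq_bot_iff]
    intro c hc
    exact hc1 c hc
  have hcard := card_conj A (b₂ * g)
  rw [show A.map (MulAut.conj (b₂ * g)).toMonoidHom = cj (b₂ * g) A from rfl, hbot, Subgroup.card_bot] at hcard
  omega

end rank

end finiteG

end Cfsg.Agent.Lib.Offender
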