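import Cfsg.Agent.Lib.Offender.SubnPair
import Mathlib

/-! Two subnormal subgroups acting irreducibly on incomparable commutator modules: the induction. -/

set_option autoImplicit false

namespace Cfsg.Agent.Lib.Offender

open Cfsg Cfsg.Agent.Lib.Subnormal Cfsg.Agent.Lib.Core
open Cfsg.Agent.Lib.FF (mem_conj_iff conj_mul_conj conj_one' card_conj conj_eq_of_mem)
open scoped commutatorElement

universe u

section abstract

variable {p : ℕ} [hp : Fact p.Prime] {Γ M : Type*} [Group Γ] [AddCommGroup M] [Module (ZMod p) M]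
variable {ρ : Γ →* Module.End (ZMod p) M}

variable [Finite Γ]

/-- The normal closure in `K`. -/
def nc (K A : Subgroup Γ) : Subgroup Γ := ⨆ g : K, cj (g : Γ) A

theorem nc_le {K A : Subgroup Γ} (hA : A ≤ K) : nc K A ≤ K := iSup_le fun g => cj_le_of_mem hA g.2

theorem cj_le_nc {K A : Subgroup Γ} {g : Γ} (hg : g ∈ K) : cj g A ≤ nc K A :=
  le_iSup (fun g : K => cj (g : Γ) A) ⟨g, hg⟩

theorem le_nc {K A : Subgroup Γ} : A ≤ nc K A := by
  have h := cj_le_nc (A := A) (one_mem K)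
  rwa [cj_one] at h

theorem nc_conj {K A : Subgroup Γ} {g y : Γ} (hg : g ∈ K) (hy : y ∈ nc K A) : g * y * g⁻¹ ∈ nc K A := by
  have h1 : nc K A ≤ (nc K A).comap (MulAut.conj g).toMonoidHom := by
    apply iSup_le
    intro h
    rintro _ ⟨a, ha, rfl⟩
    show g * (h * a * (h : Γ)⁻¹) * g⁻¹ ∈ nc K A
    have e : g * (h * a * (h : Γ)⁻¹) * g⁻¹ = (g * h) * a * (g * h)⁻¹ := by group
    rw [e]
    exact cj_le_nc (mul_mem hg h.2) ⟨a, ha, rfl⟩
  exact h1 hy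

theorem nc_sup_conj {K A B : Subgroup Γ} {g y : Γ} (hg : g ∈ K) (hy : y ∈ nc K A ⊔ nc K B) : g * y * g⁻¹ ∈ nc K A ⊔ nc K B := by
  have h1 : nc K A ⊔ nc K B ≤ (nc K A ⊔ nc K B).comap (MulAut.conj g).toMonoidHom := by
    apply sup_le
    · intro x hx
      exact (le_sup_left : nc K A ≤ _) (nc_conj hg hx)
    · intro x hx
      exact (le_sup_right : nc K B ≤ _) (nc_conj hg hx)
  exact h1 hy

/-- The inductive hypothesis. -/
def PairIH (ρ : Γ →* Module.End (ZMod p) M) (n : ℕ) : Prop :=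
  ∀ m < n, ∀ K : Subgroup Γ, Nat.card K = m → NoP p K → ∀ A B : Subgroup Γ, SN K A → SN K B → Irr ρ A → Irr ρ B →
    2 < Nat.card A → 2 < Nat.card B → ¬ Cm ρ A ≤ Cm ρ B → ¬ Cm ρ B ≤ Cm ρ A →
    (∀ a ∈ A, ∀ b ∈ B, a * b = b * a) ∧ Cm ρ A ⊓ Cm ρ B = ⊥

variable [Finite M]

theorem alt_of_ih {K B : Subgroup Γ} (IH : PairIH ρ (Nat.card K)) (hK : NoP p K) (hB : SN K B) (hIB : Irr ρ B) (hbB : 2 < Nat.card B)
    (hlt : nc K B < K) : Alt ρ K B := by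
  haveI : Module.Finite (ZMod p) M := Module.Finite.of_finite
  intro g hg g' hg'
  have hs : SN K (cj g B) := SN.cj_of_mem hB hg
  have hs' : SN K (cj g' B) := SN.cj_of_mem hB hg'
  have hN : SN K (nc K B) := SN.of_normal hlt.le (fun x hx =>
    normalizer_of_conj (fun y hy => nc_conj hx hy) (fun y hy => by simpa using nc_conj (inv_mem hx) hy))
  have e : Module.finrank (ZMod p) (Cm ρ (cj g B)) = Module.finrank (ZMod p) (Cm ρ (cj g' B)) := by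
    rw [finrank_Cm_cj, finrank_Cm_cj]
  by_cases c1 : Cm ρ (cj g B) ≤ Cm ρ (cj g' B)
  · left
    exact Submodule.eq_of_le_of_finrank_le c1 e.ge
  by_cases c2 : Cm ρ (cj g' B) ≤ Cm ρ (cj g B)
  · left
    exact (Submodule.eq_of_le_of_finrank_le c2 e.le).symm
  right
  exact IH _ (card_lt_card_of_lt hlt) (nc K B) rfl (hK.of_sn hN) _ _ (hs.of_le (cj_le_nc hg) hlt.le)
    (hs'.of_le (cj_le_nc hg') hlt.le) (hIB.cj g) (hIB.cj g') (by rw [card_conj]; exact hbB) (by rw [card_conj]; exact hbB) c1 c2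

/-- The stabilizer of a submodule. -/
def Stb (ρ : Γ →* Module.End (ZMod p) M) (S : Submodule (ZMod p) M) : Subgroup Γ where
  carrier := {k | (∀ z ∈ S, ρ k z ∈ S) ∧ (∀ z ∈ S, ρ k⁻¹ z ∈ S)}
  mul_mem' := by
    rintro x y ⟨hx, hx'⟩ ⟨hy, hy'⟩
    refine ⟨fun z hz => ?_, fun z hz => ?_⟩
    · rw [rho_mul]
      exact hx _ (hy z hz)
    · rw [mul_inv_rev, rho_mul]
      exact hy' _ (hx' z hz)
  one_mem' := by
    refine ⟨fun z hz => ?_, fun z hz => ?_⟩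
    · rw [rho_one]
      exact hz
    · rw [inv_one, rho_one]
      exact hz
  inv_mem' := by
    rintro x ⟨hx, hx'⟩
    refine ⟨hx', fun z hz => ?_⟩
    rw [inv_inv]
    exact hx z hz

theorem exists_moved_of_not_inv {K A B : Subgroup Γ} (hX : Alt ρ K B) (hL : K ≤ nc K A ⊔ nc K B)
    (hnot : ¬ ∀ k ∈ K, ∀ z ∈ Cm ρ B, ρ k z ∈ Cm ρ B) : ∃ g ∈ K, ∃ f ∈ cj g A, ∃ x₀ ∈ Cm ρ B, ρ f x₀ ∉ Cm ρ B := by
  by_contra hno
  push Not at hno
  apply hnot
  have h1 : nc K A ⊔ nc K B ≤ Stb ρ (Cm ρ B) := by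
    apply sup_le
    · apply iSup_le
      intro g f hf
      exact ⟨fun z hz => hno g g.2 f hf z hz, fun z hz => hno g g.2 f⁻¹ (inv_mem hf) z hz⟩
    · apply iSup_le
      intro g c hc
      rcases hX g g.2 1 (one_mem _) with h2 | ⟨h2, h3⟩
      · rw [cj_one] at h2
        rw [← h2]
        exact ⟨fun z hz => Cm_self_pres hc hz, fun z hz => Cm_self_pres (inv_mem hc) hz⟩
      · rw [cj_one] at h2 h3
        exact ⟨fun z hz => by rw [fix_of_comm h2 h3 hc hz]; exact hz,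
          fun z hz => by rw [fix_of_comm h2 h3 (inv_mem hc) hz]; exact hz⟩
  intro k hk z hz
  exact (h1 (hL hk)).1 z hz

theorem lt_of_not_inv {K B : Subgroup Γ} (hB : SN K B) (hnot : ¬ ∀ k ∈ K, ∀ z ∈ Cm ρ B, ρ k z ∈ Cm ρ B) : nc K B < K := by
  have hne : B ≠ K := by
    rintro rfl
    exact hnot fun k hk z hz => Cm_self_pres hk hz
  obtain ⟨L, hBL, hLK, hLn⟩ := hB.exists_normal hne
  refine lt_of_le_of_lt (iSup_le fun g => ?_) hLK
  rintro _ ⟨b, hb, rfl⟩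
  have h1 := hLn g.2
  rw [Subgroup.mem_normalizer_iff] at h1
  exact (h1 b).mp (hBL hb)

/-- **The abstract theorem.** -/
theorem pair_main (hinj : Function.Injective ρ) : ∀ (n : ℕ) (K : Subgroup Γ), Nat.card K = n → NoP p K → ∀ A B : Subgroup Γ,
    SN K A → SN K B → Irr ρ A → Irr ρ B → 2 < Nat.card A → 2 < Nat.card B → ¬ Cm ρ A ≤ Cm ρ B → ¬ Cm ρ B ≤ Cm ρ A →
    (∀ a ∈ A, ∀ b ∈ B, a * b = b * a) ∧ Cm ρ A ⊓ Cm ρ B = ⊥ := by
  intro n
  induction n using Nat.strong_induction_on with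
  | _ n ih =>
    intro K hn hK A B hA hB hIA hIB hbA hbB h12 h21
    by_cases hinvB : ∀ k ∈ K, ∀ z ∈ Cm ρ B, ρ k z ∈ Cm ρ B
    · exact nlem hinj hK hA.le hB.le hIA hinvB le_rfl h12
    by_cases hinvA : ∀ k ∈ K, ∀ z ∈ Cm ρ A, ρ k z ∈ Cm ρ A
    · obtain ⟨h1, h2⟩ := nlem hinj hK hB.le hA.le hIB hinvA le_rfl h21
      exact ⟨fun a ha b hb => (h1 b hb a ha).symm, by rwa [inf_comm]⟩
    by_cases hLK : nc K A ⊔ nc K B = K
    · subst hn
      have hXa := alt_of_ih ih hK hB hIB hbB (lt_of_not_inv hB hinvB)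
      have hYa := alt_of_ih ih hK hA hIA hbA (lt_of_not_inv hA hinvA)
      obtain ⟨g, hg, f, hf, x₀, hx₀, hmv⟩ := exists_moved_of_not_inv hXa hLK.ge hinvB
      obtain ⟨g', hg', f', hf', y₀, hy₀, hmv'⟩ := exists_moved_of_not_inv hYa (by rw [sup_comm]; exact hLK.ge) hinvA
      exact (config hinj hK hA hB hbA hbB hXa hYa hg hf hx₀ hmv hg' hf' hy₀ hmv').elim
    · have hLle : nc K A ⊔ nc K B ≤ K := sup_le (nc_le hA.le) (nc_le hB.le)
      have hlt : nc K A ⊔ nc K B < K := lt_of_le_of_ne hLle hLK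
      have hN : SN K (nc K A ⊔ nc K B) := SN.of_normal hLle (fun x hx =>
        normalizer_of_conj (fun y hy => nc_sup_conj hx hy) (fun y hy => by simpa using nc_sup_conj (inv_mem hx) hy))
      subst hn
      exact ih _ (card_lt_card_of_lt hlt) _ rfl (hK.of_sn hN) A B
        (hA.of_le (le_nc.trans le_sup_left) hLle) (hB.of_le (le_nc.trans le_sup_right) hLle) hIA hIB hbA hbB h12 h21

end abstract

section concrete

variable {G : Type u} [Group G] [Finite G] {p : ℕ} [hp : Fact p.Prime]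

/-- **S0615.** -/
theorem s0615 (V E E₁ E₂ : Subgroup G) (hV : IsElementaryAbelian p V) (hEV : E ≤ Subgroup.normalizer (V : Set G))
    (hf : E ⊓ Subgroup.centralizer (V : Set G) = ⊥) (hgen : E = E₁ ⊔ E₂) (hs₁ : (E₁.subgroupOf E).IsSubnormal)
    (hs₂ : (E₂.subgroupOf E).IsSubnormal) (hOp : pCore p ↥E = ⊥)
    (hirr₁ : (∀ U : Subgroup G, U ≤ ⁅V, E₁⁆ → E₁ ≤ Subgroup.normalizer (U : Set G) → U = ⊥ ∨ U = ⁅V, E₁⁆))
    (hirr₂ : (∀ U : Subgroup G, U ≤ ⁅V, E₂⁆ → E₂ ≤ Subgroup.normalizer (U : Set G) → U = ⊥ ∨ U = ⁅V, E₂⁆))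
    (h12 : ¬ ⁅V, E₁⁆ ≤ ⁅V, E₂⁆) (h21 : ¬ ⁅V, E₂⁆ ≤ ⁅V, E₁⁆) (hc₁ : 2 < Nat.card E₁) (hc₂ : 2 < Nat.card E₂) :
    ⁅E₁, E₂⁆ = ⊥ ∧ E₁ ⊓ E₂ = ⊥ ∧ ⁅V, E₁⁆ ⊓ ⁅V, E₂⁆ = ⊥ ∧ ⁅V, E⁆ = ⁅V, E₁⁆ ⊔ ⁅V, E₂⁆ := by
  obtain ⟨M, _, _, _, ρ, hinj, ⟨R⟩⟩ := exists_real V E hV hEV hf
  have hE₁E : E₁ ≤ E := by rw [hgen]; exact le_sup_left
  have hE₂E : E₂ ≤ E := by rw [hgen]; exact le_sup_right
  set A := E₁.subgroupOf E with hA
  set B := E₂.subgroupOf E with hB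
  have hNoP : NoP p (⊤ : Subgroup E) := by
    intro P hP hPp
    have h1 := subnormal_pgroup_le_pCore p P (sn_top_iff.mp hP) hPp
    rw [hOp] at h1
    exact le_bot_iff.mp h1
  have hSA : SN (⊤ : Subgroup E) A := sn_top_iff.mpr hs₁
  have hSB : SN (⊤ : Subgroup E) B := sn_top_iff.mpr hs₂
  have hCA : R.sub (Cm ρ A) = ⁅V, E₁⁆ := R.sub_Cm hE₁E
  have hCB : R.sub (Cm ρ B) = ⁅V, E₂⁆ := R.sub_Cm hE₂E
  have hirr : ∀ {E₀ : Subgroup G} (hE₀ : E₀ ≤ E), (∀ U : Subgroup G, U ≤ ⁅V, E₀⁆ → E₀ ≤ Subgroup.normalizer (U : Set G) → U = ⊥ ∨ U = ⁅V, E₀⁆) →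
      Irr ρ (E₀.subgroupOf E) := by
    intro E₀ hE₀ hU S hS hinv
    have hC : R.sub (Cm ρ (E₀.subgroupOf E)) = ⁅V, E₀⁆ := R.sub_Cm hE₀
    have h1 := hU (R.sub S) (by rw [← hC]; exact R.sub_mono hS) (by
      intro e he
      have hkey : ∀ x ∈ E₀, ∀ y ∈ R.sub S, x * y * x⁻¹ ∈ R.sub S := by
        rintro x hx _ ⟨s, hs, rfl⟩
        have hxE := hE₀ hx
        refine ⟨ρ ⟨x, hxE⟩ s, hinv ⟨x, hxE⟩ (Subgroup.mem_subgroupOf.mpr hx) s hs, ?_⟩
        exact R.act ⟨x, hxE⟩ s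
      rw [Subgroup.mem_normalizer_iff]
      intro y
      refine ⟨hkey e he y, fun hy => ?_⟩
      have := hkey e⁻¹ (inv_mem he) _ hy
      simpa [mul_assoc] using this)
    rcases h1 with h1 | h1
    · left
      rw [← R.sub_bot] at h1
      exact le_antisymm (R.sub_le_sub_iff.mp h1.le) bot_le
    · right
      rw [← hC] at h1
      exact le_antisymm (R.sub_le_sub_iff.mp h1.le) (R.sub_le_sub_iff.mp h1.ge)
  have hIA : Irr ρ A := hirr hE₁E hirr₁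
  have hIB : Irr ρ B := hirr hE₂E hirr₂
  have h12' : ¬ Cm ρ A ≤ Cm ρ B := fun h => h12 (by rw [← hCA, ← hCB]; exact R.sub_mono h)
  have h21' : ¬ Cm ρ B ≤ Cm ρ A := fun h => h21 (by rw [← hCA, ← hCB]; exact R.sub_mono h)
  have hcA : 2 < Nat.card A := by rw [hA, card_subgroupOf hE₁E]; exact hc₁
  have hcB : 2 < Nat.card B := by rw [hB, card_subgroupOf hE₂E]; exact hc₂
  obtain ⟨h1, h2⟩ := pair_main hinj _ (⊤ : Subgroup E) rfl hNoP A B hSA hSB hIA hIB hcA hcB h12' h21'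
  refine ⟨?_, ?_, ?_, ?_⟩
  · rw [eq_bot_iff, Subgroup.commutator_le]
    intro x hx y hy
    have h3 := h1 ⟨x, hE₁E hx⟩ (Subgroup.mem_subgroupOf.mpr hx) ⟨y, hE₂E hy⟩ (Subgroup.mem_subgroupOf.mpr hy)
    have h4 : x * y = y * x := congrArg Subtype.val h3
    rw [commutatorElement_eq_one_iff_mul_comm.mpr h4]
    exact one_mem _
  · rw [eq_bot_iff]
    rintro x ⟨hx₁, hx₂⟩
    have hxE := hE₁E hx₁
    have hxA : (⟨x, hxE⟩ : E) ∈ A := Subgroup.mem_subgroupOf.mpr hx₁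
    have hxB : (⟨x, hxE⟩ : E) ∈ B := Subgroup.mem_subgroupOf.mpr hx₂
    have h3 : (⟨x, hxE⟩ : E) = 1 := by
      apply faith hinj hNoP hSA hxA
      intro z hz
      have h4 : ρ ⟨x, hxE⟩ z - z ∈ Cm ρ A ⊓ Cm ρ B := ⟨sub_mem (Cm_self_pres hxA hz) hz, mem_Cm hxB z⟩
      rw [h2] at h4
      exact sub_eq_zero.mp h4
    have h5 : x = 1 := congrArg Subtype.val h3
    rw [h5]
    exact one_mem _
  · rw [← hCA, ← hCB, ← R.sub_inf, h2, R.sub_bot]
  · rw [← hCA, ← hCB, ← R.sub_sup, ← R.sub_Cm (le_refl E)]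
    congr 1
    have hB' : (E.subgroupOf E) = ⊤ := Subgroup.subgroupOf_self E
    rw [hB']
    apply le_antisymm
    · apply Cm_le
      have h3 : (⊤ : Subgroup E) ≤ DFix ρ (Cm ρ A ⊔ Cm ρ B) := by
        have h4 : A ⊔ B = ⊤ := by
          apply Subgroup.map_injective E.subtype_injective
          rw [Subgroup.map_sup, map_subgroupOf_eq hE₁E, map_subgroupOf_eq hE₂E, ← hgen, ← MonoidHom.range_eq_map,
            Subgroup.range_subtype]
        rw [← h4]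
        apply sup_le
        · intro x hx v
          exact Submodule.mem_sup_left (mem_Cm hx v)
        · intro x hx v
          exact Submodule.mem_sup_right (mem_Cm hx v)
      intro b _ v
      exact h3 (Subgroup.mem_top b) v
    · exact sup_le (Cm_mono le_top) (Cm_mono le_top)

end concrete

end Cfsg.Agent.Lib.Offender
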