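import Cfsg.Agent.Lib.Offender.JBar
import Cfsg.Agent.Lib.Offender.SubnPair
import Mathlib

/-! A coprime action on the family of planes: fixed diagonal copies of `SL(2, p)`. -/

set_option autoImplicit false

namespace Cfsg.Agent.Lib.Offender

open Cfsg
open scoped commutatorElement

section fixq

variable {p : ℕ} [hp : Fact p.Prime] {M : Type*} [AddCommGroup M] [Module (ZMod p) M] [Finite M]

/-- An element of order dividing `q` fixes a plane pointwise when `q` is not `2` or `3`. -/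
theorem fix_of_q {q : ℕ} [hq : Fact q.Prime] (h2 : q ≠ 2) (h3 : q ≠ 3) (hpp : p = 2 ∨ p = 3) (U : Submodule (ZMod p) M)
    (hc : Nat.card U = p ^ 2) (L : Module.End (ZMod p) M) (hL : L ^ q = 1) (hU : ∀ z ∈ U, L z ∈ U) :
    ∀ z ∈ U, L z = z := by
  classical
  have hpp' : p.Prime := Fact.out
  have hqq : q.Prime := Fact.out
  haveI : Module.Finite (ZMod p) M := Module.Finite.of_finite
  haveI : Fintype ↥U := Fintype.ofFinite _
  let f : Function.End ↥U := fun z => ⟨L z, hU z z.2⟩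
  have hpow : ∀ (n : ℕ) (z : ↥U), (((f ^ n) z : ↥U) : M) = (L ^ n) z := by
    intro n
    induction n with
    | zero => intro z; rfl
    | succ n ih =>
      intro z
      rw [pow_succ, pow_succ]
      exact ih (f z)
  have hf : f ^ q ^ 1 = 1 := by
    rw [pow_one]
    funext z
    apply Subtype.ext
    rw [hpow, hL]
    rfl
  have hmod := Equiv.Perm.card_fixedPoints_modEq hf
  set F : Submodule (ZMod p) M := U ⊓ LinearMap.eqLocus L LinearMap.id with hF
  have hFU : F ≤ U := inf_le_left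
  have hcardF : Nat.card ↥F = Fintype.card f.fixedPoints := by
    rw [← Nat.card_eq_fintype_card]
    exact Nat.card_congr
      ⟨fun z => ⟨⟨z.1, z.2.1⟩, Subtype.ext z.2.2⟩, fun z => ⟨z.1.1, z.1.2, congrArg Subtype.val z.2⟩,
        fun _ => rfl, fun _ => rfl⟩
  rw [← hcardF, ← Nat.card_eq_fintype_card, hc, card_submodule] at hmod
  have hfU : Module.finrank (ZMod p) U = 2 := by
    rw [card_submodule] at hc
    exact Nat.pow_right_injective hpp'.two_le hc
  have hk : Module.finrank (ZMod p) F ≤ 2 := by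
    rw [← hfU]
    exact Submodule.finrank_mono hFU
  have hFeq : F = U := by
    apply Submodule.eq_of_le_of_finrank_eq hFU
    rw [hfU]
    by_contra hne
    have hk1 : Module.finrank (ZMod p) F = 0 ∨ Module.finrank (ZMod p) F = 1 := by omega
    have hdvd : q ∣ 3 ∨ q ∣ 2 ∨ q ∣ 8 ∨ q ∣ 6 := by
      rcases hpp with rfl | rfl <;> rcases hk1 with h | h <;> rw [h] at hmod <;>
        have := (Nat.modEq_iff_dvd' (by norm_num)).mp hmod.symm <;> simp at this <;> tauto
    rcases hdvd with h | h | h | h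
    · exact h3 ((Nat.prime_dvd_prime_iff_eq hqq Nat.prime_three).mp h)
    · exact h2 ((Nat.prime_dvd_prime_iff_eq hqq Nat.prime_two).mp h)
    · have : q ∣ 2 := hqq.dvd_of_dvd_pow (show q ∣ 2 ^ 3 from h)
      exact h2 ((Nat.prime_dvd_prime_iff_eq hqq Nat.prime_two).mp this)
    · have h6 : q ∣ 2 * 3 := h
      rcases (Nat.Prime.dvd_mul hqq).mp h6 with h | h
      · exact h2 ((Nat.prime_dvd_prime_iff_eq hqq Nat.prime_two).mp h)
      · exact h3 ((Nat.prime_dvd_prime_iff_eq hqq Nat.prime_three).mp h)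
  intro z hz
  rw [← hFeq] at hz
  exact hz.2

end fixq

section act

variable {p q : ℕ} [hp : Fact p.Prime] [hq : Fact q.Prime] {Γ M X : Type*} [Group Γ] [Finite Γ] [AddCommGroup M]
  [Module (ZMod p) M] [Finite M] [Group X]

/-- The image of a subgroup under the acting element. -/
abbrev amp (α : X →* MulAut Γ) (x : X) (E : Subgroup Γ) : Subgroup Γ := E.map (α x).toMonoidHom

variable {α : X →* MulAut Γ} {τ : X →* Module.End (ZMod p) M} {ρ : Γ →* Module.End (ZMod p) M} {O : Subgroup Γ}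

theorem al_mul (x y : X) (h : Γ) : α (x * y) h = α x (α y h) := by
  rw [map_mul]; rfl

theorem al_one (h : Γ) : α 1 h = h := by
  rw [map_one]; rfl

theorem al_inv_apply (x : X) (h : Γ) : α x⁻¹ (α x h) = h := by
  rw [← al_mul, inv_mul_cancel, al_one]

theorem al_apply_inv (x : X) (h : Γ) : α x (α x⁻¹ h) = h := by
  rw [← al_mul, mul_inv_cancel, al_one]

theorem amp_mul (x y : X) (E : Subgroup Γ) : amp α (x * y) E = amp α x (amp α y E) := by
  ext a
  constructor
  · rintro ⟨b, hb, rfl⟩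
    exact ⟨α y b, ⟨b, hb, rfl⟩, (al_mul x y b).symm⟩
  · rintro ⟨_, ⟨b, hb, rfl⟩, rfl⟩
    exact ⟨b, hb, al_mul x y b⟩

theorem amp_one (E : Subgroup Γ) : amp α 1 E = E := by
  ext a
  constructor
  · rintro ⟨b, hb, rfl⟩
    show α 1 b ∈ E
    rw [al_one]
    exact hb
  · intro ha
    exact ⟨a, ha, al_one a⟩

theorem mem_amp {x : X} {E : Subgroup Γ} {e : Γ} (he : e ∈ E) : α x e ∈ amp α x E := ⟨e, he, rfl⟩

theorem amp_inv_of_eq {E : Subgroup Γ} {x : X} (hx : amp α x E = E) : amp α x⁻¹ E = E := by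
  have h1 := amp_mul (α := α) x⁻¹ x E
  rw [inv_mul_cancel, amp_one, hx] at h1
  exact h1.symm

/-- The coprime action. -/
structure XS (ρ : Γ →* Module.End (ZMod p) M) (O : Subgroup Γ) (α : X →* MulAut Γ) (τ : X →* Module.End (ZMod p) M)
    (q : ℕ) : Prop where
  compat : ∀ x h v, ρ (α x h) (τ x v) = τ x (ρ h v)
  core : ∀ x, O.map (α x).toMonoidHom = O
  inj : Function.Injective ρ
  cop : (Nat.card O).Coprime p
  cen : Subgroup.centralizer (O : Set Γ) ≤ O
  fam : Fam ρ O (fun E : {E : Subgroup Γ // IsE ρ O E} => (E : Subgroup Γ))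
  pow : ∀ x : X, x ^ q = 1
  q2 : q ≠ 2
  q3 : q ≠ 3

/-- The planes. -/
abbrev Idx (ρ : Γ →* Module.End (ZMod p) M) (O : Subgroup Γ) : Type _ := {E : Subgroup Γ // IsE ρ O E}

namespace XS

variable (A : XS ρ O α τ q)

include A

theorem tv {t : Γ} {u : M} {f : M →ₗ[ZMod p] ZMod p} (h : Tv ρ t u f) (x : X) :
    Tv ρ (α x t) (τ x u) (f ∘ₗ τ x⁻¹) := by
  refine ⟨?_, ?_, ?_, ?_⟩
  · intro h0
    apply h.u_ne
    have := rho_inv_apply (ρ := τ) x u
    rw [h0, map_zero] at this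
    exact this.symm
  · intro h0
    apply h.f_ne
    apply LinearMap.ext
    intro v
    have h1 := LinearMap.congr_fun h0 (τ x v)
    simpa [LinearMap.comp_apply, rho_inv_apply] using h1
  · rw [LinearMap.comp_apply, rho_inv_apply, h.fu]
  · intro v
    have e : ρ (α x t) v = ρ (α x t) (τ x (τ x⁻¹ v)) := by rw [rho_apply_inv]
    rw [e, A.compat, h.act, map_add, map_smul, rho_apply_inv, LinearMap.comp_apply]

theorem isE [hOn : O.Normal] {E : Subgroup Γ} (h : IsE ρ O E) (x : X) : IsE ρ O (amp α x E) := by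
  obtain ⟨U, W, e₁, e₂, φ, t, s, u, w, f, g, h⟩ := h
  obtain ⟨E', U', W', a₁, a₂, φ', s', w', g', h'⟩ := exists_OPl A.inj A.cop A.cen (A.tv h.ht x)
  have e : amp α x E = E' := by
    rw [h'.eq_Et, h.eq_Et]
    show Subgroup.map (α x).toMonoidHom _ = _
    rw [Subgroup.map_sup, Subgroup.map_commutator, A.core x, MonoidHom.map_zpowers]
    rfl
  rw [e]
  exact ⟨U', W', a₁, a₂, φ', _, s', _, w', _, g', h'⟩

theorem mem_Cm_amp {E : Subgroup Γ} {z : M} (hz : z ∈ Cm ρ E) (x : X) : τ x z ∈ Cm ρ (amp α x E) := by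
  have h1 : Cm ρ E ≤ (Cm ρ (amp α x E)).comap (τ x) := by
    apply Cm_le
    intro e he v
    show τ x (ρ e v - v) ∈ Cm ρ (amp α x E)
    rw [map_sub, ← A.compat]
    exact mem_Cm (mem_amp he) _
  exact h1 hz

theorem mem_Fx_amp {E : Subgroup Γ} {z : M} (hz : z ∈ Fx ρ E) (x : X) : τ x z ∈ Fx ρ (amp α x E) := by
  rintro _ ⟨e, he, rfl⟩
  show ρ (α x e) (τ x z) = τ x z
  rw [A.compat, hz e he]

theorem stab_tau [hOn : O.Normal] {E : Subgroup Γ} (hE : IsE ρ O E) {x : X} (hx : amp α x E = E) :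
    ∀ z ∈ Cm ρ E, τ x z = z := by
  apply fix_of_q A.q2 A.q3 (hE.prime A.inj A.cop) _ hE.card_Cm
  · rw [← map_pow, A.pow, map_one]
  · intro z hz
    have := A.mem_Cm_amp hz x
    rwa [hx] at this

theorem stab_alpha [hOn : O.Normal] {E : Subgroup Γ} (hE : IsE ρ O E) {x : X} (hx : amp α x E = E) :
    ∀ e ∈ E, α x e = e := by
  intro e he
  have h1 : e⁻¹ * α x e = 1 := by
    apply hE.eq_one A.inj
    · intro z hz
      have h2 : τ x z = z := A.stab_tau hE hx z hz
      have e1 : ρ (α x e) z = ρ e z := by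
        have h3 : τ x (ρ e z) = ρ e z := A.stab_tau hE hx _ (Cm_self_pres he hz)
        calc ρ (α x e) z = ρ (α x e) (τ x z) := by rw [h2]
          _ = τ x (ρ e z) := A.compat _ _ _
          _ = ρ e z := h3
      rw [rho_mul, e1, rho_inv_apply]
    · intro w hw
      have h2 : τ x⁻¹ w ∈ Fx ρ E := by
        have := A.mem_Fx_amp hw x⁻¹
        rwa [amp_inv_of_eq hx] at this
      have e1 : ρ (α x e) w = w := by
        calc ρ (α x e) w = ρ (α x e) (τ x (τ x⁻¹ w)) := by rw [rho_apply_inv]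
          _ = τ x (ρ e (τ x⁻¹ w)) := A.compat _ _ _
          _ = τ x (τ x⁻¹ w) := by rw [h2 e he]
          _ = w := rho_apply_inv _ _
      rw [rho_mul, e1]
      exact rho_eq_of_eq_inv (hw e he)
  have e2 : α x e = e * (e⁻¹ * α x e) := by group
  rw [e2, h1, mul_one]

theorem eq_of_agree [hOn : O.Normal] {x y : Γ} (h : ∀ i : Idx ρ O, ∀ z ∈ Cm ρ i.1, ρ x z = ρ y z) : x = y := by
  haveI : Finite (Idx ρ O) := inferInstance
  apply A.inj
  apply LinearMap.ext
  intro v
  have hlin := (A.fam.lin A.inj A.cop).2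
  have hv : v ∈ Fx ρ (⊤ : Subgroup Γ) ⊔ ⨆ i : Idx ρ O, Cm ρ i.1 := by
    rw [hlin]
    trivial
  have hle : Fx ρ (⊤ : Subgroup Γ) ⊔ ⨆ i : Idx ρ O, Cm ρ i.1 ≤ LinearMap.eqLocus (ρ x) (ρ y) :=
    sup_le (fun w hw => (hw x trivial).trans (hw y trivial).symm) (iSup_le fun i z hz => h i z hz)
  exact hle hv

theorem assemble [hOn : O.Normal] (a : Idx ρ O → Γ) (ha : ∀ i, a i ∈ i.1) :
    ∃ d : Γ, ∀ i : Idx ρ O, ∀ z ∈ Cm ρ i.1, ρ d z = ρ (a i) z := by
  classical
  haveI : Finite (Idx ρ O) := inferInstance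
  haveI := Fintype.ofFinite (Idx ρ O)
  have key : ∀ s : Finset (Idx ρ O), ∃ d : Γ, (∀ i ∈ s, ∀ z ∈ Cm ρ i.1, ρ d z = ρ (a i) z) ∧
      (∀ i, i ∉ s → ∀ z ∈ Cm ρ i.1, ρ d z = z) := by
    intro s
    induction s using Finset.induction_on with
    | empty => exact ⟨1, by simp, fun i _ z _ => rho_one z⟩
    | insert j s hj ih =>
      obtain ⟨d, h1, h2⟩ := ih
      refine ⟨d * a j, ?_, ?_⟩
      · intro i hi z hz
        rw [rho_mul]
        rcases Finset.mem_insert.mp hi with rfl | hi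
        · exact h2 i hj _ (Cm_self_pres (ha i) hz)
        · have hij : i ≠ j := fun h => hj (h ▸ hi)
          have h3 := (A.fam.cross A.inj A.cop hij).1 hz (a j) (ha j)
          rw [h3]
          exact h1 i hi z hz
      · intro i hi z hz
        have hij : i ≠ j := fun h => hi (h ▸ Finset.mem_insert_self _ _)
        have h3 := (A.fam.cross A.inj A.cop hij).1 hz (a j) (ha j)
        rw [rho_mul, h3]
        exact h2 i (fun h => hi (Finset.mem_insert_of_mem h)) z hz
  obtain ⟨d, h, -⟩ := key Finset.univ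
  exact ⟨d, fun i => h i (Finset.mem_univ i)⟩

end XS

end act

end Cfsg.Agent.Lib.Offender
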