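import Cfsg.Agent.Lib.Offender.XAct
import Mathlib

/-! The diagonal copy of `SL(2, p)` fixed by the action. -/

set_option autoImplicit false

namespace Cfsg.Agent.Lib.Offender

open Cfsg
open scoped commutatorElement

section act

variable {p q : ℕ} [hp : Fact p.Prime] [hq : Fact q.Prime] {Γ M X : Type*} [Group Γ] [Finite Γ] [AddCommGroup M]
  [Module (ZMod p) M] [Finite M] [Group X]
variable {α : X →* MulAut Γ} {τ : X →* Module.End (ZMod p) M} {ρ : Γ →* Module.End (ZMod p) M} {O : Subgroup Γ}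
  [hOn : O.Normal]

namespace XS

variable (A : XS ρ O α τ q)

/-- The action on the planes. -/
def act (x : X) (i : Idx ρ O) : Idx ρ O := ⟨amp α x i.1, A.isE i.2 x⟩

theorem act_mul (x y : X) (i : Idx ρ O) : A.act (x * y) i = A.act x (A.act y i) := Subtype.ext (amp_mul x y i.1)

theorem act_one (i : Idx ρ O) : A.act 1 i = i := Subtype.ext (amp_one i.1)

theorem act_inv_act (x : X) (i : Idx ρ O) : A.act x⁻¹ (A.act x i) = i := by
  rw [← act_mul, inv_mul_cancel, act_one]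

theorem act_act_inv (x : X) (i : Idx ρ O) : A.act x (A.act x⁻¹ i) = i := by
  rw [← act_mul, mul_inv_cancel, act_one]

variable (i₀ : Idx ρ O)

theorem same {x y : X} (h : A.act x i₀ = A.act y i₀) :
    (∀ e ∈ i₀.1, α x e = α y e) ∧ (∀ z ∈ Cm ρ i₀.1, τ x z = τ y z) := by
  have h1 : A.act (x⁻¹ * y) i₀ = i₀ := by rw [act_mul, ← h, act_inv_act]
  have h2 : amp α (x⁻¹ * y) i₀.1 = i₀.1 := congrArg Subtype.val h1
  constructor
  · intro e he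
    have h3 := A.stab_alpha i₀.2 h2 e he
    rw [al_mul] at h3
    have h4 := congrArg (α x) h3
    rw [al_apply_inv] at h4
    exact h4.symm
  · intro z hz
    have h3 := A.stab_tau i₀.2 h2 z hz
    rw [rho_mul] at h3
    have h4 := congrArg (τ x) h3
    rw [rho_apply_inv] at h4
    exact h4.symm

open _root_.Classical in
/-- A representative carrying the base plane to a given plane. -/
noncomputable def rr (i : Idx ρ O) : X := if h : ∃ x, A.act x i₀ = i then h.choose else 1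

theorem rr_spec {i : Idx ρ O} (h : ∃ x, A.act x i₀ = i) : A.act (A.rr i₀ i) i₀ = i := by
  rw [rr, dif_pos h]
  exact h.choose_spec

theorem amp_rr {i : Idx ρ O} (h : ∃ x, A.act x i₀ = i) : amp α (A.rr i₀ i) i₀.1 = i.1 :=
  congrArg Subtype.val (A.rr_spec i₀ h)

open _root_.Classical in
/-- The components of the diagonal element. -/
noncomputable def dF (e : Γ) (i : Idx ρ O) : Γ := if ∃ x, A.act x i₀ = i then α (A.rr i₀ i) e else 1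

theorem dF_mem {e : Γ} (he : e ∈ i₀.1) (i : Idx ρ O) : A.dF i₀ e i ∈ i.1 := by
  unfold dF
  split_ifs with h
  · have h1 : α (A.rr i₀ i) e ∈ amp α (A.rr i₀ i) i₀.1 := mem_amp he
    rwa [A.amp_rr i₀ h] at h1
  · exact one_mem _

theorem exists_dd (e : ↥i₀.1) : ∃ d : Γ, ∀ i : Idx ρ O, ∀ z ∈ Cm ρ i.1, ρ d z = ρ (A.dF i₀ e i) z :=
  A.assemble _ (A.dF_mem i₀ e.2)

/-- The diagonal element. -/
noncomputable def dd (e : ↥i₀.1) : Γ := (A.exists_dd i₀ e).choose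

theorem dd_orb (e : ↥i₀.1) (x : X) {z : M} (hz : z ∈ Cm ρ (amp α x i₀.1)) : ρ (A.dd i₀ e) z = ρ (α x e) z := by
  have h := (A.exists_dd i₀ e).choose_spec (A.act x i₀) z hz
  have h2 : ∃ y, A.act y i₀ = A.act x i₀ := ⟨x, rfl⟩
  have h3 : A.dF i₀ e (A.act x i₀) = α (A.rr i₀ (A.act x i₀)) e := by
    unfold dF
    rw [if_pos h2]
  have h4 := (A.same i₀ (A.rr_spec i₀ h2)).1 e e.2
  rw [h3, h4] at h
  exact h

theorem dd_out (e : ↥i₀.1) {i : Idx ρ O} (hi : ¬∃ x, A.act x i₀ = i) {z : M} (hz : z ∈ Cm ρ i.1) :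
    ρ (A.dd i₀ e) z = z := by
  have h := (A.exists_dd i₀ e).choose_spec i z hz
  have h3 : A.dF i₀ e i = 1 := by
    unfold dF
    rw [if_neg hi]
  rw [h3, rho_one] at h
  exact h

theorem dd_mul (e e' : ↥i₀.1) : A.dd i₀ (e * e') = A.dd i₀ e * A.dd i₀ e' := by
  apply A.eq_of_agree
  intro i z hz
  rw [rho_mul]
  by_cases hi : ∃ x, A.act x i₀ = i
  · obtain ⟨x, rfl⟩ := hi
    have hz' : z ∈ Cm ρ (amp α x i₀.1) := hz
    rw [A.dd_orb i₀ _ x hz', A.dd_orb i₀ e' x hz', A.dd_orb i₀ e x (Cm_self_pres (mem_amp e'.2) hz'), Subgroup.coe_mul,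
      map_mul, rho_mul]
  · rw [A.dd_out i₀ _ hi hz, A.dd_out i₀ _ hi hz, A.dd_out i₀ _ hi hz]

theorem dd_fix (y : X) (e : ↥i₀.1) : α y (A.dd i₀ e) = A.dd i₀ e := by
  apply A.eq_of_agree
  intro i z hz
  have hz' : τ y⁻¹ z ∈ Cm ρ (amp α y⁻¹ i.1) := A.mem_Cm_amp hz y⁻¹
  have e1 : ρ (α y (A.dd i₀ e)) z = τ y (ρ (A.dd i₀ e) (τ y⁻¹ z)) := by
    rw [← A.compat, rho_apply_inv]
  rw [e1]
  by_cases hi : ∃ x, A.act x i₀ = i
  · obtain ⟨x, rfl⟩ := hi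
    have hz2 : τ y⁻¹ z ∈ Cm ρ (amp α (y⁻¹ * x) i₀.1) := by
      rw [amp_mul]
      exact hz'
    have hz3 : z ∈ Cm ρ (amp α x i₀.1) := hz
    rw [A.dd_orb i₀ e _ hz2, ← A.compat, rho_apply_inv, ← al_mul, mul_inv_cancel_left, A.dd_orb i₀ e x hz3]
  · have hi' : ¬∃ x, A.act x i₀ = A.act y⁻¹ i := by
      rintro ⟨x, hx⟩
      apply hi
      refine ⟨y * x, ?_⟩
      rw [act_mul, hx, act_act_inv]
    have hz2 : τ y⁻¹ z ∈ Cm ρ (A.act y⁻¹ i).1 := hz'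
    rw [A.dd_out i₀ e hi' hz2, rho_apply_inv, A.dd_out i₀ e hi hz]

theorem dd_conj (e : ↥i₀.1) {t : Γ} (ht : t ∈ i₀.1) : A.dd i₀ e * t * (A.dd i₀ e)⁻¹ = e * t * (e : Γ)⁻¹ := by
  have h1 : ∀ z ∈ Cm ρ i₀.1, ρ (A.dd i₀ e) z = ρ e z := by
    intro z hz
    have h2 : z ∈ Cm ρ (amp α 1 i₀.1) := by rwa [amp_one]
    rw [A.dd_orb i₀ e 1 h2, al_one]
  set c : Γ := (e : Γ)⁻¹ * A.dd i₀ e with hc
  have h2 : c ∈ Fix ρ (Cm ρ i₀.1) := by
    intro z hz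
    rw [hc, rho_mul, h1 z hz, rho_inv_apply]
  have h3 : c ∈ ⨆ (j : Idx ρ O) (_ : j ≠ i₀), (j : Subgroup Γ) := by
    have h4 := A.fam.Fix_eq A.inj A.cop i₀
    exact h4 ▸ h2
  have h4 : t * c = c * t := A.fam.comm_compl A.inj A.cop i₀ t ht c h3
  have e2 : A.dd i₀ e = e * c := by rw [hc]; group
  rw [e2]
  calc (e : Γ) * c * t * ((e : Γ) * c)⁻¹ = e * (c * t) * c⁻¹ * (e : Γ)⁻¹ := by group
    _ = e * (t * c) * c⁻¹ * (e : Γ)⁻¹ := by rw [h4]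
    _ = _ := by group

/-- The orbit of the base plane. -/
noncomputable def orbS : Finset (Idx ρ O) := (Set.toFinite {i : Idx ρ O | ∃ x, A.act x i₀ = i}).toFinset

theorem mem_orbS {i : Idx ρ O} : i ∈ A.orbS i₀ ↔ ∃ x, A.act x i₀ = i := by
  rw [orbS, Set.Finite.mem_toFinset]
  rfl

/-- The norm map. -/
noncomputable def Dl : Module.End (ZMod p) M := ∑ i ∈ A.orbS i₀, τ (A.rr i₀ i)

theorem Dl_apply (z : M) : A.Dl i₀ z = ∑ i ∈ A.orbS i₀, τ (A.rr i₀ i) z := LinearMap.sum_apply _ _ _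

theorem tau_Dl (y : X) {z : M} (hz : z ∈ Cm ρ i₀.1) : τ y (A.Dl i₀ z) = A.Dl i₀ z := by
  rw [Dl_apply, map_sum]
  apply Finset.sum_nbij' (fun i => A.act y i) (fun i => A.act y⁻¹ i)
  · intro i hi
    obtain ⟨x, rfl⟩ := (A.mem_orbS i₀).mp hi
    exact (A.mem_orbS i₀).mpr ⟨y * x, A.act_mul _ _ _⟩
  · intro i hi
    obtain ⟨x, rfl⟩ := (A.mem_orbS i₀).mp hi
    exact (A.mem_orbS i₀).mpr ⟨y⁻¹ * x, A.act_mul _ _ _⟩
  · intro i _
    exact A.act_inv_act _ _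
  · intro i _
    exact A.act_act_inv _ _
  · intro i hi
    have hS := (A.mem_orbS i₀).mp hi
    have hS' : ∃ x, A.act x i₀ = A.act y i := by
      obtain ⟨x, rfl⟩ := hS
      exact ⟨y * x, A.act_mul _ _ _⟩
    have e1 : A.act (y * A.rr i₀ i) i₀ = A.act (A.rr i₀ (A.act y i)) i₀ := by
      rw [A.act_mul, A.rr_spec i₀ hS, A.rr_spec i₀ hS']
    rw [← rho_mul]
    exact (A.same i₀ e1).2 z hz

theorem Dl_sub {z : M} (hz : z ∈ Cm ρ i₀.1) : A.Dl i₀ z - z ∈ Fx ρ i₀.1 := by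
  classical
  have hi₀ : i₀ ∈ A.orbS i₀ := (A.mem_orbS i₀).mpr ⟨1, A.act_one _⟩
  rw [Dl_apply, ← Finset.add_sum_erase _ _ hi₀]
  have h1 : τ (A.rr i₀ i₀) z = z := by
    have e1 : A.act (A.rr i₀ i₀) i₀ = A.act 1 i₀ := by
      rw [A.rr_spec i₀ ((A.mem_orbS i₀).mp hi₀), A.act_one]
    rw [(A.same i₀ e1).2 z hz, rho_one]
  rw [h1, add_sub_cancel_left]
  apply sum_mem
  intro i hi
  obtain ⟨hne, hS⟩ := Finset.mem_erase.mp hi
  have h2 : τ (A.rr i₀ i) z ∈ Cm ρ i.1 := by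
    have h3 := A.mem_Cm_amp hz (A.rr i₀ i)
    rwa [A.amp_rr i₀ ((A.mem_orbS i₀).mp hS)] at h3
  exact (A.fam.cross A.inj A.cop hne).1 h2

theorem Dl_inj {z z' : M} (hz : z ∈ Cm ρ i₀.1) (hz' : z' ∈ Cm ρ i₀.1) (h : A.Dl i₀ z = A.Dl i₀ z') : z = z' := by
  have h1 : z - z' ∈ Cm ρ i₀.1 := sub_mem hz hz'
  have h2 := A.Dl_sub i₀ h1
  rw [map_sub, h, sub_self, zero_sub] at h2
  have h3 : z - z' ∈ Fx ρ i₀.1 := by simpa using neg_mem h2
  exact sub_eq_zero.mp ((Submodule.disjoint_def.mp i₀.2.compl.disjoint) _ h1 h3)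

theorem rho_dd_Dl (e : ↥i₀.1) {z : M} (hz : z ∈ Cm ρ i₀.1) : ρ (A.dd i₀ e) (A.Dl i₀ z) = A.Dl i₀ (ρ e z) := by
  rw [Dl_apply, Dl_apply, map_sum]
  apply Finset.sum_congr rfl
  intro i _
  have h1 : τ (A.rr i₀ i) z ∈ Cm ρ (amp α (A.rr i₀ i) i₀.1) := A.mem_Cm_amp hz _
  rw [A.dd_orb i₀ e _ h1, A.compat]

include A in
/-- **The fixed diagonal copy of `SL(2, p)`.** -/
theorem main : ∃ (d : ↥i₀.1 →* Γ) (W : Submodule (ZMod p) M),
    (∀ (y : X) (e : ↥i₀.1), α y (d e) = d e) ∧ (∀ (e : ↥i₀.1), ∀ t ∈ i₀.1, d e * t * (d e)⁻¹ = e * t * (e : Γ)⁻¹) ∧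
      Nat.card W = p ^ 2 ∧ (∀ (y : X), ∀ w ∈ W, τ y w = w) ∧ (∀ (e : ↥i₀.1), ∀ w ∈ W, ρ (d e) w ∈ W) ∧
      (∀ e : ↥i₀.1, (∀ w ∈ W, ρ (d e) w = w) → e = 1) := by
  refine ⟨MonoidHom.mk' (A.dd i₀) (A.dd_mul i₀), (Cm ρ i₀.1).map (A.Dl i₀), A.dd_fix i₀, ?_, ?_, ?_, ?_, ?_⟩
  · intro e t ht
    exact A.dd_conj i₀ e ht
  · rw [← i₀.2.card_Cm]
    symm
    apply Nat.card_congr
    refine Equiv.ofBijective (fun z : ↥(Cm ρ i₀.1) => ⟨A.Dl i₀ z, Submodule.mem_map_of_mem z.2⟩) ⟨?_, ?_⟩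
    · intro a b hab
      exact Subtype.ext (A.Dl_inj i₀ a.2 b.2 (congrArg Subtype.val hab))
    · rintro ⟨_, z, hz, rfl⟩
      exact ⟨⟨z, hz⟩, rfl⟩
  · rintro y _ ⟨z, hz, rfl⟩
    exact A.tau_Dl i₀ y hz
  · rintro e _ ⟨z, hz, rfl⟩
    show ρ (A.dd i₀ e) (A.Dl i₀ z) ∈ _
    rw [A.rho_dd_Dl i₀ e hz]
    exact Submodule.mem_map_of_mem (Cm_self_pres e.2 hz)
  · intro e he
    apply Subtype.ext
    apply i₀.2.eq_one A.inj
    · intro z hz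
      have h1 := he (A.Dl i₀ z) (Submodule.mem_map_of_mem hz)
      have h2 : ρ (A.dd i₀ e) (A.Dl i₀ z) = A.Dl i₀ z := h1
      rw [A.rho_dd_Dl i₀ e hz] at h2
      exact A.Dl_inj i₀ (Cm_self_pres e.2 hz) hz h2
    · intro w hw
      exact hw e e.2

end XS

end act

end Cfsg.Agent.Lib.Offender
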