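import Cfsg.Agent.Lib.Offender.XGen
import Cfsg.Agent.Lib.Coprime.Action
import Mathlib

/-! From an action on a group to the abstract setting for the plane family. -/

set_option autoImplicit false

namespace Cfsg.Agent.Lib.Offender

open Cfsg Cfsg.Agent.Lib.Core Cfsg.Agent.Lib.PLocal
open scoped commutatorElement MatrixGroups

universe u

section auts

variable {Y H : Type*} [Group Y] [Group H] [Finite H]

/-- Restriction of an action to an invariant subgroup. -/
def resAut (β : Y →* MulAut H) (L : Subgroup H) (hL : ∀ y, ∀ h ∈ L, β y h ∈ L) : Y →* MulAut ↥L :=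
  MonoidHom.mk' (fun y =>
    { toFun := fun h => ⟨β y h, hL y h h.2⟩
      invFun := fun h => ⟨β y⁻¹ h, hL y⁻¹ h h.2⟩
      left_inv := fun h => Subtype.ext (al_inv_apply y (h : H))
      right_inv := fun h => Subtype.ext (al_apply_inv y (h : H))
      map_mul' := fun a b => Subtype.ext (map_mul (β y) (a : H) b) })
    (fun x y => by
      ext h
      exact al_mul x y (h : H))

theorem resAut_apply (β : Y →* MulAut H) (L : Subgroup H) (hL : ∀ y, ∀ h ∈ L, β y h ∈ L) (y : Y) (h : ↥L) :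
    (resAut β L hL y h : H) = β y h := rfl

/-- The action on a quotient by an invariant normal subgroup. -/
def quotAut (β : Y →* MulAut H) (C : Subgroup H) [C.Normal] (hC : ∀ y, ∀ h ∈ C, β y h ∈ C) : Y →* MulAut (H ⧸ C) :=
  MonoidHom.mk' (fun y => QuotientGroup.congr C C (β y) (by
      apply le_antisymm
      · rintro _ ⟨g, hg, rfl⟩
        exact hC y g hg
      · intro g hg
        exact ⟨β y⁻¹ g, hC y⁻¹ g hg, al_apply_inv y g⟩))
    (fun x y => by
      ext q
      obtain ⟨g, rfl⟩ := QuotientGroup.mk_surjective q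
      exact congrArg (QuotientGroup.mk : H → H ⧸ C) (al_mul x y g))

theorem quotAut_mk (β : Y →* MulAut H) (C : Subgroup H) [C.Normal] (hC : ∀ y, ∀ h ∈ C, β y h ∈ C) (y : Y) (g : H) :
    quotAut β C hC y (QuotientGroup.mk g) = QuotientGroup.mk (β y g) := rfl

theorem exists_tau {p : ℕ} [hp : Fact p.Prime] {M : Type*} [AddCommGroup M] [Module (ZMod p) M] {V : Subgroup H} {ι : M → H}
    (map_add : ∀ a b, ι (a + b) = ι a * ι b) (inj : Function.Injective ι) (mem : ∀ v, ι v ∈ V) (surj : ∀ g ∈ V, ∃ v, ι v = g)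
    (β : Y →* MulAut H) (hV : ∀ y, ∀ g ∈ V, β y g ∈ V) :
    ∃ τ : Y →* Module.End (ZMod p) M, ∀ y v, ι (τ y v) = β y (ι v) := by
  have hex : ∀ y v, ∃ w, ι w = β y (ι v) := fun y v => surj _ (hV y _ (mem v))
  choose f hf using hex
  have hadd : ∀ y a b, f y (a + b) = f y a + f y b := by
    intro y a b
    apply inj
    rw [hf, map_add, map_add, hf, hf, map_mul]
  let τ₀ : Y → Module.End (ZMod p) M := fun y => (AddMonoidHom.mk' (f y) (hadd y)).toZModLinearMap p
  have hτ₀ : ∀ y v, τ₀ y v = f y v := fun _ _ => rfl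
  refine ⟨{ toFun := τ₀, map_one' := ?_, map_mul' := ?_ }, fun y v => hf y v⟩
  · apply LinearMap.ext
    intro v
    apply inj
    rw [hτ₀, hf, al_one]
    rfl
  · intro x y
    apply LinearMap.ext
    intro v
    apply inj
    show ι (τ₀ (x * y) v) = ι (τ₀ x (τ₀ y v))
    rw [hτ₀, hτ₀, hτ₀, hf, hf, hf, al_mul]

end auts

section charac

variable {T : Type*} [Group T] [Finite T] {p : ℕ} [hp : Fact p.Prime]

theorem sylowOmega_aut (a : MulAut T) {x : T} (hx : x ∈ sylowOmega p T) : a x ∈ sylowOmega p T := by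
  have h1 : sylowOmega p T ≤ (sylowOmega p T).comap a.toMonoidHom := by
    apply iSup_le
    intro S
    rw [omegaOne, Subgroup.closure_le]
    rintro x ⟨⟨hxS, hxC⟩, hxp⟩
    apply omega_le_sylowOmega (S.mapSurjective (f := a.toMonoidHom) a.surjective)
    apply Subgroup.subset_closure
    refine ⟨⟨⟨x, hxS, rfl⟩, ?_⟩, ?_⟩
    · refine Subgroup.mem_centralizer_iff.mpr ?_
      rintro _ ⟨s, hs, rfl⟩
      have h2 := Subgroup.mem_centralizer_iff.mp hxC s hs
      show a s * a x = a x * a s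
      rw [← map_mul, ← map_mul, h2]
    · show (a x) ^ p = 1
      rw [← map_pow, hxp, map_one]
  exact h1 hx

theorem thompson_aut (a : MulAut T) {x : T} (hx : x ∈ thompsonSubgroup p T) : a x ∈ thompsonSubgroup p T := by
  have h := (thompson_characteristic (p := p) (G := T))
  rw [Subgroup.characteristic_iff_map_eq] at h
  have h1 := h a
  rw [← h1]
  exact ⟨x, hx, rfl⟩

end charac

section lift

variable {T : Type u} [Group T] [Finite T] {p q : ℕ} [hp : Fact p.Prime] [hq : Fact q.Prime] {Y : Type*} [Group Y] [Finite Y]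
  (c : Y →* MulAut T)

theorem cen_aut {V : Subgroup T} (hVc : ∀ y, ∀ g ∈ V, c y g ∈ V) (y : Y) {g : T} (hg : g ∈ Subgroup.centralizer (V : Set T)) :
    c y g ∈ Subgroup.centralizer (V : Set T) := by
  rw [Subgroup.mem_centralizer_iff] at hg ⊢
  intro v hv
  have h1 := hg _ (hVc y⁻¹ v hv)
  have h2 := congrArg (c y) h1
  rw [map_mul, map_mul, al_apply_inv] at h2
  exact h2

variable {V : Subgroup T} [hVn : V.Normal] {M : Type u} [AddCommGroup M] [Module (ZMod p) M] [Finite M]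
  {ρ : T ⧸ Subgroup.centralizer (V : Set T) →* Module.End (ZMod p) M}

theorem card_SL_dvd (hqT : ¬ q ∣ Nat.card T) {E : Subgroup (T ⧸ Subgroup.centralizer (V : Set T))}
    (φ : E ≃* SL(2, ZMod p)) (hpp : p = 2 ∨ p = 3) : q ≠ 2 ∧ q ≠ 3 := by
  have h1 : Nat.card SL(2, ZMod p) ∣ Nat.card T := by
    rw [← Nat.card_congr φ.toEquiv]
    exact (Subgroup.card_subgroup_dvd_card E).trans (Subgroup.card_quotient_dvd_card _)
  obtain ⟨h2, h3⟩ := sl2_dvd hpp
  constructor
  · rintro rfl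
    exact hqT (h2.trans h1)
  · rintro rfl
    exact hqT (h3.trans h1)

/-- The concrete form of the fixed diagonal. -/
theorem lift_main (hVc : ∀ y, ∀ g ∈ V, c y g ∈ V) (hV : IsElementaryAbelian p V) (hsep : IsPSolvable p T)
    (hOb : pCore p (T ⧸ Subgroup.centralizer (V : Set T)) = ⊥) (R : QReal V ρ) (hinj : Function.Injective ρ)
    (hqY : ∀ y : Y, y ^ q = 1) (hqT : ¬ q ∣ Nat.card T) (hY : ∀ a b : Y, a * b = b * a)
    (i₀ : Idx (ρ.comp (jbar p V).subtype) (pPrimeCore p ↥(jbar p V))) :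
    ∃ (d : ↥i₀.1 →* ↥(jbar p V)) (W : Submodule (ZMod p) M),
      (∀ e : ↥i₀.1, ∃ k : T, (∀ y, c y k = k) ∧ (QuotientGroup.mk k : T ⧸ Subgroup.centralizer (V : Set T)) = (d e : _)) ∧
      (∀ (e : ↥i₀.1), ∀ t ∈ i₀.1, d e * t * (d e)⁻¹ = e * t * (e : ↥(jbar p V))⁻¹) ∧
      Nat.card W = p ^ 2 ∧ (∀ (y : Y), ∀ w ∈ W, c y (R.ι w) = R.ι w) ∧ (∀ (e : ↥i₀.1), ∀ w ∈ W, ρ (d e : _) w ∈ W) ∧
      (∀ e : ↥i₀.1, (∀ w ∈ W, ρ (d e : _) w = w) → e = 1) := by
  have hpp : p.Prime := Fact.out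
  have hqq : q.Prime := Fact.out
  have hCc : ∀ y, ∀ g ∈ Subgroup.centralizer (V : Set T), c y g ∈ Subgroup.centralizer (V : Set T) := fun y g hg => cen_aut c hVc y hg
  haveI hJn : (jbar p V).Normal := jbar_normal V
  let β := quotAut c (Subgroup.centralizer (V : Set T)) hCc
  have hJc : ∀ y, ∀ h ∈ (jbar p V), β y h ∈ (jbar p V) := by
    rintro y _ ⟨j, hj, rfl⟩
    exact ⟨c y j, thompson_aut _ hj, rfl⟩
  let α := resAut β (jbar p V) hJc
  obtain ⟨τ, hτ⟩ := exists_tau (p := p) R.map_add R.inj R.mem R.surj c hVc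
  obtain ⟨hinj', hOp, hCe, hFam⟩ := jbar_fam hsep hV hOb R hinj
  obtain ⟨φ⟩ := i₀.2.iso
  obtain ⟨hq2, hq3⟩ : q ≠ 2 ∧ q ≠ 3 := by
    apply card_SL_dvd hqT (E := i₀.1.map (jbar p V).subtype) (V := V) ((Subgroup.equivMapOfInjective i₀.1 _ (jbar p V).subtype_injective).symm.trans φ)
    exact i₀.2.prime hinj' hOp
  have A : XS (ρ.comp (jbar p V).subtype) (pPrimeCore p ↥(jbar p V)) α τ q := by
    refine ⟨?_, ?_, hinj', hOp, hCe, hFam, hqY, hq2, hq3⟩
    · rintro x ⟨_, j, hj, rfl⟩ v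
      apply R.inj
      show R.ι (ρ (QuotientGroup.mk (c x j)) (τ x v)) = R.ι (τ x (ρ (QuotientGroup.mk j) v))
      rw [R.act, hτ, hτ, R.act, map_mul, map_mul, map_inv]
    · intro x
      exact map_pPrimeCore_equiv (α x)
  obtain ⟨d, W, h1, h2, h3, h4, h5, h6⟩ := A.main i₀
  refine ⟨d, W, ?_, h2, h3, ?_, h5, h6⟩
  · intro e
    obtain ⟨k₀, hk₀⟩ := QuotientGroup.mk_surjective (d e : T ⧸ (Subgroup.centralizer (V : Set T)))
    have hfix : ∀ y, (QuotientGroup.mk (c y k₀) : T ⧸ (Subgroup.centralizer (V : Set T))) = QuotientGroup.mk k₀ := by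
      intro y
      have h7 : β y (d e : _) = (d e : _) := congrArg Subtype.val (h1 y e)
      rw [← hk₀] at h7
      exact h7
    letI act : MulDistribMulAction Y T := MulDistribMulAction.compHom T c
    have hsm : ∀ (y : Y) (g : T), y • g = c y g := fun _ _ => rfl
    have hcop : (Nat.card Y).Coprime (Nat.card T) := by
      have hpg : IsPGroup q Y := fun y => ⟨1, by rw [pow_one]; exact hqY y⟩
      obtain ⟨n, hn⟩ := IsPGroup.iff_card.mp hpg
      rw [hn]
      exact Nat.Coprime.pow_left n ((Nat.Prime.coprime_iff_not_dvd hqq).mpr hqT)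
    obtain ⟨n, hn, hfixed⟩ := Cfsg.Agent.Lib.Coprime.exists_fixed_mem_coset' (A := Y) (G := T) (Subgroup.centralizer (V : Set T))
      (fun a x hx => hCc a x hx) hcop (Or.inl (Group.isSolvable_of_comm hY)) k₀ (fun a => by
        rw [← QuotientGroup.eq]
        exact (hfix a).symm)
    refine ⟨k₀ * n, hfixed, ?_⟩
    rw [← hk₀]
    show (QuotientGroup.mk (k₀ * n) : T ⧸ (Subgroup.centralizer (V : Set T))) = QuotientGroup.mk k₀
    rw [QuotientGroup.eq]
    simpa using hn
  · intro y w hw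
    rw [← hτ, h4 y w hw]

end lift

end Cfsg.Agent.Lib.Offender
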