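import Cfsg.Agent.Lib.Offender.XAct2
import Cfsg.Agent.Lib.Huppert.SL23Rec
import Mathlib

/-! Generation of `SL(2, p)` by the conjugates of an element of order `p`; orders. -/

set_option autoImplicit false

namespace Cfsg.Agent.Lib.Offender

open Cfsg Matrix Cfsg.Agent.Lib.KS2.SL2 Cfsg.Agent.Lib.PLocal.QuadMat
open scoped MatrixGroups commutatorElement

set_option maxRecDepth 100000 in
theorem sl22_card : Nat.card SL(2, ZMod 2) = 6 := by
  rw [Nat.card_eq_fintype_card]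
  decide

/-- `2` and `3` divide the order of `SL(2, p)`. -/
theorem sl2_dvd {p : ℕ} (hp : p = 2 ∨ p = 3) : 2 ∣ Nat.card SL(2, ZMod p) ∧ 3 ∣ Nat.card SL(2, ZMod p) := by
  rcases hp with rfl | rfl
  · rw [sl22_card]
    norm_num
  · have : Nat.card SL(2, ZMod 3) = 24 := Cfsg.Agent.Lib.Huppert.sl23_card
    rw [this]
    norm_num

def q21 : SL(2, ZMod 2) := ⟨!![0, 1; 1, 0], by decide⟩

set_option maxRecDepth 100000 in
theorem sl22_conj : ∀ m : SL(2, ZMod 2), m ^ 2 = 1 → m ≠ 1 → ∃ y, y * m * y⁻¹ = up (1 : ZMod 2) := by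
  decide

set_option maxRecDepth 100000 in
theorem sl22_low : q21 * up (1 : ZMod 2) * q21⁻¹ = low (1 : ZMod 2) := by
  decide

set_option maxRecDepth 100000 in
theorem sl23_conj : ∀ m : SL(2, ZMod 3), m ^ 3 = 1 → m ≠ 1 → ∃ y, y * m * y⁻¹ = up (1 : ZMod 3) ∨ y * m * y⁻¹ = up (2 : ZMod 3) := by
  decide

set_option maxRecDepth 100000 in
theorem sl23_low1 : OPl.q8a * up (1 : ZMod 3) * OPl.q8a⁻¹ = low (2 : ZMod 3) := by
  decide

set_option maxRecDepth 100000 in
theorem sl23_low2 : OPl.q8a * up (2 : ZMod 3) * OPl.q8a⁻¹ = low (1 : ZMod 3) := by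
  decide

set_option maxRecDepth 100000 in
theorem sl23_up : up (2 : ZMod 3) * up (2 : ZMod 3) = up (1 : ZMod 3) := by
  decide

theorem z2_ne : (1 : ZMod 2) ≠ 0 := by decide

theorem z3_ne1 : (1 : ZMod 3) ≠ 0 := by decide

theorem z3_ne2 : (2 : ZMod 3) ≠ 0 := by decide

/-- The conjugates of an element of order `p` generate `SL(2, p)`. -/
theorem sl2_conj_gen {p : ℕ} [hp : Fact p.Prime] (hpp : p = 2 ∨ p = 3) (S : Subgroup SL(2, ZMod p)) (m : SL(2, ZMod p)) (hm : m ^ p = 1)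
    (hm1 : m ≠ 1) (h : ∀ y, y * m * y⁻¹ ∈ S) : S = ⊤ := by
  have hconj : ∀ y z : SL(2, ZMod p), z * (y * m * y⁻¹) * z⁻¹ ∈ S := by
    intro y z
    have e : z * (y * m * y⁻¹) * z⁻¹ = (z * y) * m * (z * y)⁻¹ := by group
    rw [e]
    exact h _
  rcases hpp with rfl | rfl
  · obtain ⟨y, hy⟩ := sl22_conj m hm hm1
    have h1 := h y
    have h2 := hconj y q21
    rw [hy] at h1 h2
    rw [sl22_low] at h2
    exact eq_top_of_up_low S (z2_ne) h1 h2
  · obtain ⟨y, hy | hy⟩ := sl23_conj m hm hm1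
    · have h1 := h y
      have h2 := hconj y OPl.q8a
      rw [hy] at h1 h2
      rw [sl23_low1] at h2
      exact eq_top_of_up_low S (z3_ne2) h1 h2
    · have h1 := h y
      have h2 := hconj y OPl.q8a
      rw [hy] at h1 h2
      rw [sl23_low2] at h2
      have h3 := mul_mem h1 h1
      rw [sl23_up] at h3
      exact eq_top_of_up_low S (z3_ne1) h3 h2

end Cfsg.Agent.Lib.Offender
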