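import Cfsg.Agent.Lib.Offender.XConc
import Cfsg.Agent.Lib.PLocal.Factor
import Cfsg.Agent.Lib.Core.Subnormal
import Mathlib

/-! Coprime actions on groups without Thompson factorization. -/

set_option autoImplicit false

namespace Cfsg.Agent.Lib.Offender

open Cfsg Cfsg.Agent.Lib.Core Cfsg.Agent.Lib.PLocal Cfsg.Agent.Lib.Transfer Cfsg.Agent.Lib.Techniques Cfsg.Agent.Lib.Amalgam
open scoped commutatorElement MatrixGroups

universe u

theorem exists_factor {D E Q : Type*} [Group D] [Group E] [Group Q] (g : D →* Q) (d : E →* Q) (hd : Function.Injective d)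
    (h : ∀ x, g x ∈ d.range) : ∃ f : D →* E, ∀ x, d (f x) = g x := by
  refine ⟨(MonoidHom.ofInjective hd).symm.toMonoidHom.comp (g.codRestrict _ h), fun x => ?_⟩
  have h1 := (MonoidHom.ofInjective hd).apply_symm_apply (g.codRestrict _ h x)
  exact congrArg Subtype.val h1

theorem exists_elem_sylow {Q : Type*} [Group Q] [Finite Q] {p : ℕ} [hp : Fact p.Prime] (P : Sylow p Q) (A : Subgroup Q) [hA : A.Normal]
    (B : Subgroup ↥A) [hB : B.Normal] (hdvd : p ∣ Nat.card B) :
    ∃ t : ↥B, t ^ p = 1 ∧ t ≠ 1 ∧ ((t : ↥A) : Q) ∈ (P : Subgroup Q) := by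
  obtain ⟨Q₁, h₁⟩ := sylow_inf_normal p A P
  obtain ⟨Q₂, h₂⟩ := sylow_inf_normal p B Q₁
  have h3 := Q₂.dvd_card_of_dvd_card hdvd
  obtain ⟨x, hx⟩ := exists_prime_orderOf_dvd_card' p h3
  have hne : x ≠ 1 := by
    rintro rfl
    rw [orderOf_one] at hx
    exact (Fact.out : p.Prime).one_lt.ne hx
  refine ⟨x.1, ?_, fun h => hne (Subtype.ext h), ?_⟩
  · have h4 := pow_orderOf_eq_one x
    rw [hx] at h4
    exact congrArg Subtype.val h4
  · have h4 : ∀ y ∈ (Q₂ : Subgroup ↥B), ((y : ↥A) : Q) ∈ (P : Subgroup Q) := by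
      intro y hy
      rw [h₂, Subgroup.mem_subgroupOf] at hy
      have h5 : (y : ↥A) ∈ (Q₁ : Subgroup ↥A) := hy
      rw [h₁, Subgroup.mem_subgroupOf] at h5
      exact h5
    exact h4 x.1 x.2

section main

variable {T : Type u} [Group T] [Finite T] {p q : ℕ} [hp : Fact p.Prime] [hq : Fact q.Prime] {Y : Type*} [Group Y] [Finite Y]
  (c : Y →* MulAut T)

variable {V : Subgroup T} [hVn : V.Normal] {M : Type u} [AddCommGroup M] [Module (ZMod p) M] [Finite M]
  {ρ : T ⧸ Subgroup.centralizer (V : Set T) →* Module.End (ZMod p) M}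

/-- Each plane lies in the image of a subgroup containing a Sylow subgroup and the fixed points. -/
theorem E_le_map (hVc : ∀ y, ∀ g ∈ V, c y g ∈ V) (hV : IsElementaryAbelian p V) (hsep : IsPSolvable p T)
    (hOb : pCore p (T ⧸ Subgroup.centralizer (V : Set T)) = ⊥) (R : QReal V ρ) (hinj : Function.Injective ρ)
    (hqY : ∀ y : Y, y ^ q = 1) (hqT : ¬ q ∣ Nat.card T) (hY : ∀ a b : Y, a * b = b * a)
    (S : Sylow p T) (L : Subgroup T) (hSL : (S : Subgroup T) ≤ L) (hFL : ∀ k : T, (∀ y, c y k = k) → k ∈ L)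
    (i₀ : Idx (ρ.comp (jbar p V).subtype) (pPrimeCore p ↥(jbar p V))) {x : ↥(jbar p V)} (hx : x ∈ i₀.1) :
    (x : T ⧸ Subgroup.centralizer (V : Set T)) ∈ L.map (piC V) := by
  obtain ⟨hinj', hOp, hCe, hFam⟩ := jbar_fam hsep hV hOb R hinj
  obtain ⟨d, W, h1, h2, h3, h4, h5, h6⟩ := lift_main c hVc hV hsep hOb R hinj hqY hqT hY i₀
  obtain ⟨φ⟩ := i₀.2.iso
  have hpp := i₀.2.prime hinj' hOp
  haveI hJn : (jbar p V).Normal := jbar_normal V
  haveI hEn : (i₀.1).Normal := Subgroup.normalizer_eq_top_iff.mp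
    (eq_top_iff.mpr (fun g _ => hFam.le_normalizer hinj' hOp i₀ g))
  have hdvd : p ∣ Nat.card i₀.1 := by
    rw [Nat.card_congr φ.toEquiv]
    rcases hpp with rfl | rfl
    · exact (sl2_dvd (Or.inl rfl)).1
    · exact (sl2_dvd (Or.inr rfl)).2
  obtain ⟨t, ht1, ht2, ht3⟩ := exists_elem_sylow (S.mapSurjective (f := piC V) (QuotientGroup.mk'_surjective _)) (jbar p V) i₀.1 hdvd
  obtain ⟨s, hs, hst⟩ := ht3
  -- the subgroup of `SL(2, p)`
  let G₀ : Subgroup SL(2, ZMod p) := ((L.map (piC V)).comap ((jbar p V).subtype.comp i₀.1.subtype)).map φ.toMonoidHom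
  have hconj : ∀ y, y * φ t * y⁻¹ ∈ G₀ := by
    intro y
    refine ⟨(φ.symm y) * t * (φ.symm y)⁻¹, ?_, ?_⟩
    · obtain ⟨k, hk1, hk2⟩ := h1 (φ.symm y)
      have h7 := h2 (φ.symm y) t t.2
      show (((((φ.symm y) * t * (φ.symm y)⁻¹ : ↥i₀.1) : ↥(jbar p V))) : T ⧸ Subgroup.centralizer (V : Set T)) ∈ L.map (piC V)
      have h8 : (((φ.symm y) * t * (φ.symm y)⁻¹ : ↥i₀.1) : ↥(jbar p V)) = d (φ.symm y) * t * (d (φ.symm y))⁻¹ := by
        rw [h7]
        simp
      rw [h8]
      refine ⟨k * s * k⁻¹, mul_mem (mul_mem (hFL k hk1) (hSL hs)) (inv_mem (hFL k hk1)), ?_⟩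
      show (QuotientGroup.mk (k * s * k⁻¹) : T ⧸ Subgroup.centralizer (V : Set T)) = _
      rw [QuotientGroup.mk_mul, QuotientGroup.mk_mul, QuotientGroup.mk_inv, hk2]
      have hst' : (QuotientGroup.mk s : T ⧸ Subgroup.centralizer (V : Set T)) = ((t : ↥(jbar p V)) : _) := hst
      rw [hst']
      rfl
    · show φ ((φ.symm y) * t * (φ.symm y)⁻¹) = y * φ t * y⁻¹
      rw [map_mul, map_mul, map_inv, φ.apply_symm_apply]
  have hm1 : (φ t) ^ p = 1 := by rw [← map_pow, ht1, map_one]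
  have hm2 : φ t ≠ 1 := by
    intro h
    exact ht2 (φ.injective (by rw [h, map_one]))
  have htop := sl2_conj_gen hpp G₀ (φ t) hm1 hm2 hconj
  have hmem : φ ⟨x, hx⟩ ∈ G₀ := by
    rw [htop]
    trivial
  obtain ⟨x', hx', he⟩ := hmem
  have e1 : x' = ⟨x, hx⟩ := φ.injective he
  rw [e1] at hx'
  exact hx'

end main

section stmtT

variable {T : Type u} [Group T] [Finite T] {p q : ℕ} [hp : Fact p.Prime] [hq : Fact q.Prime] {Y : Type*} [Group Y] [Finite Y]
  (c : Y →* MulAut T)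

/-- **S0620 for the action of a group on `T`.** -/
theorem s0620_T (hqY : ∀ y : Y, y ^ q = 1) (hqT : ¬ q ∣ Nat.card T) (hY : ∀ a b : Y, a * b = b * a) (hsep : IsPSolvable p T)
    (hO : pPrimeCore p T = ⊥) (S : Sylow p T) (F : Subgroup T) (hF : ∀ k : T, (∀ y, c y k = k) → k ∈ F) :
    Subgroup.normalizer (thompsonSubgroupOf p (S : Subgroup T) : Set T) ⊔
      Subgroup.centralizer (omegaOne p ((S : Subgroup T) ⊓ Subgroup.centralizer ((S : Subgroup T) : Set T)) : Set T) ⊔ F = ⊤ := by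
  have hpp : p.Prime := Fact.out
  set L := Subgroup.normalizer (thompsonSubgroupOf p (S : Subgroup T) : Set T) ⊔
      Subgroup.centralizer (omegaOne p ((S : Subgroup T) ⊓ Subgroup.centralizer ((S : Subgroup T) : Set T)) : Set T) ⊔ F with hL
  have hN : Subgroup.normalizer (thompsonSubgroupOf p (S : Subgroup T) : Set T) ≤ L := le_sup_left.trans le_sup_left
  have hC : Subgroup.centralizer (omegaOne p ((S : Subgroup T) ⊓ Subgroup.centralizer ((S : Subgroup T) : Set T)) : Set T) ≤ L :=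
    le_sup_of_le_left le_sup_right
  have hFL : F ≤ L := le_sup_right
  rw [eq_top_iff]
  intro g _
  by_cases hJC : thompsonSubgroup p T ≤ Subgroup.centralizer (sylowOmega p T : Set T)
  · obtain ⟨x, hx, c', hc', n, hn, hfac⟩ := (thompsonFactorizable_iff hO).mpr hJC S g
    rw [hO, Subgroup.mem_bot] at hx
    subst hx
    rw [one_mul] at hfac
    rw [hfac]
    exact mul_mem (hC hc') (hN hn)
  · haveI hVn : (sylowOmega p T).Normal := sylowOmega_normal
    have hcp := Cfsg.Agent.Lib.PSolv.centralizer_pCore_le (Cfsg.Agent.Lib.PSolv.pStep_of_isPSolvable hpp hsep) hO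
    have hV : IsElementaryAbelian p (sylowOmega p T) := sylowOmega_ea hcp
    have hOb : pCore p (T ⧸ Subgroup.centralizer (sylowOmega p T : Set T)) = ⊥ := pCore_quotient_centralizer_sylowOmega
    obtain ⟨M, _, _, _, ρ, hinj, ⟨R⟩⟩ := exists_qreal (sylowOmega p T) hV
    obtain ⟨hinj', hOp, hCe, hFam⟩ := jbar_fam hsep hV hOb R hinj
    have hSL : (S : Subgroup T) ≤ L := fun s hs =>
      hN (mem_normalizer_thompsonOf (p := p) (Subgroup.le_normalizer hs))
    have hCV : Subgroup.centralizer (sylowOmega p T : Set T) ≤ L :=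
      (Subgroup.centralizer_le (omega_le_sylowOmega S)).trans hC
    have hVc : ∀ y, ∀ g ∈ sylowOmega p T, c y g ∈ sylowOmega p T := fun y g hg => sylowOmega_aut (c y) hg
    have hJL : thompsonSubgroup p T ≤ L := by
      intro j hj
      have hjmem : (⟨piC _ j, j, hj, rfl⟩ : ↥(jbar p (sylowOmega p T))) ∈
          ⨆ E : Idx (ρ.comp (jbar p (sylowOmega p T)).subtype) (pPrimeCore p ↥(jbar p (sylowOmega p T))), (E.1 : Subgroup _) := by
        have h1 := hFam.sup
        rw [h1]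
        trivial
      have hle : ⨆ E : Idx (ρ.comp (jbar p (sylowOmega p T)).subtype) (pPrimeCore p ↥(jbar p (sylowOmega p T))), (E.1 : Subgroup _) ≤
          (L.map (piC (sylowOmega p T))).comap (jbar p (sylowOmega p T)).subtype :=
        iSup_le fun i x hx => E_le_map c hVc hV hsep hOb R hinj hqY hqT hY S L hSL (fun k hk => hFL (hF k hk)) i hx
      obtain ⟨l, hl, e⟩ := hle hjmem
      have h2 : l⁻¹ * j ∈ Subgroup.centralizer (sylowOmega p T : Set T) := QuotientGroup.eq.mp e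
      have e3 : j = l * (l⁻¹ * j) := by group
      rw [e3]
      exact mul_mem hl (hCV h2)
    -- the Frattini argument
    set JC := thompsonSubgroup p T ⊔ Subgroup.centralizer (sylowOmega p T : Set T) with hJCdef
    haveI hJchar : (thompsonSubgroup p T).Characteristic := thompson_characteristic (p := p) (G := T)
    have hJCn : JC.Normal := inferInstance
    have hJCL : JC ≤ L := sup_le hJL hCV
    have hR : SylowIn p ((S : Subgroup T) ⊓ JC) JC :=
      (sylowIn_top_of_sylow S).inf_of_normal le_top (by rw [Subgroup.normalizer_eq_top_iff.mpr hJCn])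
    have hconjC : conjS g JC = JC := by
      rw [← mem_normalizer_iff_conjS, Subgroup.normalizer_eq_top_iff.mpr hJCn]; trivial
    have hR' : SylowIn p (conjS g ((S : Subgroup T) ⊓ JC)) JC := by
      have := hR.conj g
      rwa [hconjC] at this
    obtain ⟨c₀, hc₀, hcR⟩ := hR.exists_conj_eq hR'
    have hn : c₀⁻¹ * g ∈ Subgroup.normalizer ((((S : Subgroup T) ⊓ JC : Subgroup T)) : Set T) := by
      rw [mem_normalizer_iff_conjS, conjS_mul, ← hcR, conjS_inv_conjS]
    have hJle : thompsonSubgroupOf p (S : Subgroup T) ≤ (S : Subgroup T) ⊓ JC :=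
      le_inf (thompsonOf_le _) ((thompsonOf_sylow_le S).trans le_sup_left)
    have hJeq := thompsonOf_eq_of_between (p := p) (inf_le_left : (S : Subgroup T) ⊓ JC ≤ S) hJle
    have hn' := mem_normalizer_thompsonOf (p := p) hn
    rw [hJeq] at hn'
    have e4 : g = c₀ * (c₀⁻¹ * g) := by group
    rw [e4]
    exact mul_mem (hJCL hc₀) (hN hn')

end stmtT

section stmtT2

variable {T : Type u} [Group T] [Finite T] {p q : ℕ} [hp : Fact p.Prime] [hq : Fact q.Prime] {Y : Type*} [Group Y] [Finite Y]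
  (c : Y →* MulAut T)

/-- **S0621 for the action of a group on `T`.** -/
theorem s0621_T (hqY : ∀ y : Y, y ^ q = 1) (hqT : ¬ q ∣ Nat.card T) (hY : ∀ a b : Y, a * b = b * a) (hsep : IsPSolvable p T)
    (hO : pPrimeCore p T = ⊥) (hnf : ¬ IsThompsonFactorizable p T) :
    (p = 2 ∨ p = 3) ∧ ∃ Wt Dt : Subgroup T, (∀ y, ∀ w ∈ Wt, c y w = w) ∧ (∀ y, ∀ k ∈ Dt, c y k = k) ∧
      IsElementaryAbelian p Wt ∧ Nat.card Wt = p ^ 2 ∧ Dt ≤ Subgroup.normalizer (Wt : Set T) ∧
      ∃ f : ↥Dt →* SL(2, ZMod p), Function.Surjective f ∧ ∀ x : ↥Dt, f x = 1 ↔ (x : T) ∈ Subgroup.centralizer (Wt : Set T) := by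
  have hpp : p.Prime := Fact.out
  have hJC : ¬ thompsonSubgroup p T ≤ Subgroup.centralizer (sylowOmega p T : Set T) :=
    fun h => hnf ((thompsonFactorizable_iff hO).mpr h)
  haveI hVn : (sylowOmega p T).Normal := sylowOmega_normal
  have hcp := Cfsg.Agent.Lib.PSolv.centralizer_pCore_le (Cfsg.Agent.Lib.PSolv.pStep_of_isPSolvable hpp hsep) hO
  have hV : IsElementaryAbelian p (sylowOmega p T) := sylowOmega_ea hcp
  have hOb : pCore p (T ⧸ Subgroup.centralizer (sylowOmega p T : Set T)) = ⊥ := pCore_quotient_centralizer_sylowOmega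
  obtain ⟨M, _, _, _, ρ, hinj, ⟨R⟩⟩ := exists_qreal (sylowOmega p T) hV
  obtain ⟨hinj', hOp, hCe, hFam⟩ := jbar_fam hsep hV hOb R hinj
  have hVc : ∀ y, ∀ g ∈ sylowOmega p T, c y g ∈ sylowOmega p T := fun y g hg => sylowOmega_aut (c y) hg
  obtain ⟨j, hj, hjC⟩ := SetLike.not_le_iff_exists.mp hJC
  have hj1 : piC (sylowOmega p T) j ≠ 1 := by
    intro h
    apply hjC
    rw [← ker_piC]
    exact h
  have hne : Nonempty (Idx (ρ.comp (jbar p (sylowOmega p T)).subtype) (pPrimeCore p ↥(jbar p (sylowOmega p T)))) := by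
    by_contra hno
    rw [not_nonempty_iff] at hno
    have h1 := hFam.sup
    rw [iSup_of_empty] at h1
    have h2 : (⟨piC _ j, j, hj, rfl⟩ : ↥(jbar p (sylowOmega p T))) ∈ (⊥ : Subgroup ↥(jbar p (sylowOmega p T))) := by
      rw [h1]
      trivial
    rw [Subgroup.mem_bot] at h2
    exact hj1 (congrArg Subtype.val h2)
  obtain ⟨i₀⟩ := hne
  refine ⟨i₀.2.prime hinj' hOp, ?_⟩
  obtain ⟨φ⟩ := i₀.2.iso
  obtain ⟨d, W, h1, h2, h3, h4, h5, h6⟩ := lift_main c hVc hV hsep hOb R hinj hqY hqT hY i₀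
  let d₁ : ↥i₀.1 →* T ⧸ Subgroup.centralizer (sylowOmega p T : Set T) := (jbar p (sylowOmega p T)).subtype.comp d
  have hd₁ : ∀ e, d₁ e = (d e : _) := fun _ => rfl
  have hd₁inj : Function.Injective d₁ := by
    rw [injective_iff_map_eq_one]
    intro e he
    apply h6
    intro w _
    rw [← hd₁, he, rho_one]
  let Fc : Subgroup T :=
    { carrier := {k | ∀ y, c y k = k}
      mul_mem' := fun ha hb y => by rw [map_mul, ha y, hb y]
      one_mem' := fun y => map_one _
      inv_mem' := fun ha y => by rw [map_inv, ha y] }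
  let Dt : Subgroup T := Fc ⊓ d₁.range.comap (piC (sylowOmega p T))
  have hWV : R.toReal.sub W ≤ sylowOmega p T := R.toReal.sub_le W
  refine ⟨R.toReal.sub W, Dt, ?_, ?_, ea_of_le hV hWV, ?_, ?_, ?_⟩
  · rintro y _ ⟨w, hw, rfl⟩
    exact h4 y w hw
  · intro y k hk
    exact hk.1 y
  · rw [R.toReal.card_sub W]
    exact h3
  · intro k hk
    obtain ⟨e, he⟩ := hk.2
    have key : ∀ w ∈ W, ρ (QuotientGroup.mk k) w = ρ (d e : _) w := by
      intro w _
      have h7 : (d e : T ⧸ Subgroup.centralizer (sylowOmega p T : Set T)) = QuotientGroup.mk k := he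
      rw [h7]
    apply mem_normalizer_of_conj_mem
    rintro _ ⟨w, hw, rfl⟩
    refine ⟨ρ (QuotientGroup.mk k) w, ?_, R.act k w⟩
    rw [key w hw]
    exact h5 e w hw
  · obtain ⟨f₀, hf₀⟩ := exists_factor ((piC (sylowOmega p T)).comp Dt.subtype) d₁ hd₁inj (fun x => x.2.2)
    refine ⟨φ.toMonoidHom.comp f₀, ?_, ?_⟩
    · intro m
      obtain ⟨k, hk1, hk2⟩ := h1 (φ.symm m)
      have hkD : k ∈ Dt := ⟨hk1, ⟨φ.symm m, hk2.symm⟩⟩
      refine ⟨⟨k, hkD⟩, ?_⟩
      have e1 : f₀ ⟨k, hkD⟩ = φ.symm m := by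
        apply hd₁inj
        rw [hf₀]
        exact hk2
      show φ (f₀ ⟨k, hkD⟩) = m
      rw [e1, φ.apply_symm_apply]
    · intro x
      have e0 : (φ.toMonoidHom.comp f₀) x = 1 ↔ f₀ x = 1 := by
        constructor
        · intro h
          apply φ.injective
          rw [map_one]
          exact h
        · intro h
          show φ (f₀ x) = 1
          rw [h, map_one]
      rw [e0]
      constructor
      · intro h
        have h8 := hf₀ x
        rw [h, map_one] at h8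
        have h9 : (x : T) ∈ Subgroup.centralizer (sylowOmega p T : Set T) := by
          rw [← ker_piC]
          exact h8.symm
        exact Subgroup.centralizer_le hWV h9
      · intro h
        apply h6
        intro w hw
        rw [← hd₁, hf₀]
        apply R.inj
        show R.ι (ρ (QuotientGroup.mk (x : T)) w) = R.ι w
        rw [R.act]
        have h10 : R.ι w ∈ R.toReal.sub W := ⟨w, hw, rfl⟩
        have h11 := Subgroup.mem_centralizer_iff.mp h (R.ι w) h10
        rw [← h11]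
        group

end stmtT2

section stmts

variable {G : Type u} [Group G] [Finite G] {p q : ℕ} [hp : Fact p.Prime] [hq : Fact q.Prime]

/-- The conjugation action. -/
noncomputable def cOf (K X : Subgroup G) (hXK : X ≤ Subgroup.normalizer (K : Set G)) : ↥X →* MulAut ↥K :=
  K.normalizerMonoidHom.comp (Subgroup.inclusion hXK)

theorem cOf_val (K X : Subgroup G) (hXK : X ≤ Subgroup.normalizer (K : Set G)) (y : ↥X) (k : ↥K) :
    ((cOf K X hXK y k : ↥K) : G) = y * k * (y : G)⁻¹ := rfl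

theorem cOf_fix_iff {K X : Subgroup G} {hXK : X ≤ Subgroup.normalizer (K : Set G)} (k : ↥K) :
    (∀ y, cOf K X hXK y k = k) ↔ (k : G) ∈ Subgroup.centralizer (X : Set G) := by
  rw [Subgroup.mem_centralizer_iff]
  constructor
  · intro h y hy
    have h1 : y * (k : G) * y⁻¹ = k := congrArg Subtype.val (h ⟨y, hy⟩)
    calc y * (k : G) = (y * (k : G) * y⁻¹) * y := by group
      _ = k * y := by rw [h1]
  · intro h y
    apply Subtype.ext
    rw [cOf_val, h y y.2]
    group

/-- **S0620.** -/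
theorem s0620 (K X : Subgroup G) (hXK : X ≤ Subgroup.normalizer (K : Set G)) (hX : IsElementaryAbelian q X)
    (hq' : ¬ q ∣ Nat.card K) (hsep : IsPSolvable p ↥K) (hO : pPrimeCore p ↥K = ⊥) (S : Sylow p ↥K) :
    Subgroup.normalizer (thompsonSubgroupOf p (S : Subgroup ↥K) : Set ↥K) ⊔
      Subgroup.centralizer (omegaOne p ((S : Subgroup ↥K) ⊓ Subgroup.centralizer ((S : Subgroup ↥K) : Set ↥K)) : Set ↥K) ⊔
        (Subgroup.centralizer (X : Set G)).subgroupOf K = ⊤ :=
  s0620_T (cOf K X hXK) (q := q) (fun y => Subtype.ext (hX.2 y y.2)) hq' (fun a b => hX.1.is_comm.comm a b) hsep hO S _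
    (fun k hk => Subgroup.mem_subgroupOf.mpr ((cOf_fix_iff k).mp hk))

/-- **S0621.** -/
theorem s0621 (K X : Subgroup G) (hXK : X ≤ Subgroup.normalizer (K : Set G)) (hX : IsElementaryAbelian q X)
    (hq' : ¬ q ∣ Nat.card K) (hsep : IsPSolvable p ↥K) (hO : pPrimeCore p ↥K = ⊥) (hnf : ¬ IsThompsonFactorizable p ↥K) :
    (p = 2 ∨ p = 3) ∧ ∃ W D : Subgroup G, W ≤ K ⊓ Subgroup.centralizer (X : Set G) ∧ D ≤ K ⊓ Subgroup.centralizer (X : Set G) ∧
      IsElementaryAbelian p W ∧ Nat.card W = p ^ 2 ∧ D ≤ Subgroup.normalizer (W : Set G) ∧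
      ∃ hn : ((Subgroup.centralizer (W : Set G)).subgroupOf D).Normal,
        Nonempty ((↥D ⧸ (Subgroup.centralizer (W : Set G)).subgroupOf D) ≃* SL(2, ZMod p)) := by
  obtain ⟨hpp, Wt, Dt, hW, hD, hEA, hcard, hN, f, hfs, hfk⟩ := s0621_T (cOf K X hXK) (q := q) (fun y => Subtype.ext (hX.2 y y.2))
    hq' (fun a b => hX.1.is_comm.comm a b) hsep hO hnf
  refine ⟨hpp, Wt.map K.subtype, Dt.map K.subtype, ?_, ?_, ?_, ?_, ?_, ?_⟩
  · rintro _ ⟨w, hw, rfl⟩
    exact ⟨w.2, (cOf_fix_iff w).mp fun y => hW y w hw⟩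
  · rintro _ ⟨k, hk, rfl⟩
    exact ⟨k.2, (cOf_fix_iff k).mp fun y => hD y k hk⟩
  · refine ⟨⟨⟨?_⟩⟩, ?_⟩
    · rintro ⟨_, a, ha, rfl⟩ ⟨_, b, hb, rfl⟩
      apply Subtype.ext
      have h1 := hEA.1.is_comm.comm ⟨a, ha⟩ ⟨b, hb⟩
      exact congrArg (fun z : ↥Wt => (((z : ↥K)) : G)) h1
    · rintro _ ⟨a, ha, rfl⟩
      have h1 := hEA.2 a ha
      show (a : G) ^ p = 1
      rw [← Subgroup.coe_pow, h1]
      rfl
  · rw [Subgroup.card_map_of_injective K.subtype_injective]
    exact hcard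
  · rintro _ ⟨k, hk, rfl⟩
    have hk' := hN hk
    apply mem_normalizer_of_conj_mem
    rintro _ ⟨w, hw, rfl⟩
    exact ⟨k * w * k⁻¹, conj_mem_of_mem_normalizer hk' hw, rfl⟩
  · let e : ↥Dt ≃* ↥(Dt.map K.subtype) := Subgroup.equivMapOfInjective Dt K.subtype K.subtype_injective
    let f' : ↥(Dt.map K.subtype) →* SL(2, ZMod p) := f.comp e.symm.toMonoidHom
    have hfs' : Function.Surjective f' := by
      intro m
      obtain ⟨x, hx⟩ := hfs m
      refine ⟨e x, ?_⟩
      show f (e.symm (e x)) = m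
      rw [e.symm_apply_apply, hx]
    apply exists_quot_iso f' hfs'
    ext x
    rw [MonoidHom.mem_ker, Subgroup.mem_subgroupOf, Subgroup.mem_centralizer_iff]
    have hx : ((x : G)) = (((e.symm x : ↥Dt) : ↥K) : G) := by
      have h1 := e.apply_symm_apply x
      exact (congrArg Subtype.val h1).symm
    show f (e.symm x) = 1 ↔ _
    rw [hfk, Subgroup.mem_centralizer_iff]
    constructor
    · rintro h _ ⟨w, hw, rfl⟩
      rw [hx]
      have h1 := h w hw
      exact congrArg Subtype.val h1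
    · intro h w hw
      apply Subtype.ext
      have h1 := h (w : G) ⟨w, hw, rfl⟩
      rw [hx] at h1
      exact h1

end stmts

end Cfsg.Agent.Lib.Offender
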