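import Cfsg.Agent.Lib.Offender.Quot
import Cfsg.Agent.Lib.PLocal.Factor
import Mathlib

/-! `[Ω₁(Z(J(C))), J(G)] ≤ V`. -/

set_option autoImplicit false

namespace Cfsg.Agent.Lib.Offender

open Cfsg Cfsg.Agent.Lib.Core Cfsg.Agent.Lib.PLocal
open scoped commutatorElement

universe u

variable {G : Type u} [Group G] [Finite G] {p : ℕ} [hp : Fact p.Prime]

/-- The `p'`-core of `G / C_G(V)` is self-centralizing. -/
theorem quot_core (hsep : IsPSolvable p G) (V : Subgroup G) [V.Normal]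
    (hO : pCore p (G ⧸ Subgroup.centralizer (V : Set G)) = ⊥) :
    Subgroup.centralizer (pPrimeCore p (G ⧸ Subgroup.centralizer (V : Set G)) : Set (G ⧸ Subgroup.centralizer (V : Set G))) ≤
      pPrimeCore p (G ⧸ Subgroup.centralizer (V : Set G)) := by
  have hΓ : IsPSolvable p (G ⧸ Subgroup.centralizer (V : Set G)) :=
    Cfsg.Agent.Lib.Fusion.isPSolvable_of_surjective (Fact.out : p.Prime) (piC V) (QuotientGroup.mk'_surjective _) hsep
  exact Cfsg.Agent.Lib.PGroup.AxLemma.centralizer_pPrimeCore_le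
    (Cfsg.Agent.Lib.PSolv.pStep_of_isPSolvable (Fact.out : p.Prime) hΓ) hO

/-- The count for a maximal elementary abelian subgroup. -/
theorem count_of_maxEA (hsep : IsPSolvable p G) (V : Subgroup G) [V.Normal] (hV : IsElementaryAbelian p V)
    (hO : pCore p (G ⧸ Subgroup.centralizer (V : Set G)) = ⊥) {A : Subgroup G}
    (hA : A ∈ maxElementaryAbelianSubgroups p G) :
    Nat.card A * Nat.card ↥(V ⊓ A) = Nat.card ↥(A ⊓ Subgroup.centralizer (V : Set G)) * Nat.card V := by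
  obtain ⟨M, _, _, _, ρ, hinj, ⟨R⟩⟩ := exists_qreal V hV
  have hC := quot_core hsep V hO
  have hOp := pPrimeCore_coprime p (G ⧸ Subgroup.centralizer (V : Set G))
  have hBO := R.bo_of_best (maxEA_bestOffender hV hA)
  have hcardA := card_map_mul_inf (piC V) A
  rw [ker_piC] at hcardA
  have hVCA : V ⊓ Subgroup.centralizer (A : Set G) = V ⊓ A := by
    apply le_antisymm
    · rintro x ⟨hx, hxc⟩
      exact ⟨hx, mem_maxEA_of_commute hA (fun a ha => Subgroup.mem_centralizer_iff.mp hxc a ha) (hV.2 x hx)⟩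
    · rintro x ⟨hx, hxA⟩
      exact ⟨hx, Subgroup.mem_centralizer_iff.mpr fun a ha => ea_comm hA.1 ha hxA⟩
  have hmain : Nat.card (A.map (piC V)) * Nat.card ↥(V ⊓ A) = Nat.card V := by
    rw [← hVCA, ← R.card_Fx, ← R.toReal.card_M]
    by_cases h0 : A.map (piC V) = ⊥
    · rw [h0, Subgroup.card_bot, one_mul, Fx_bot]
      exact Nat.card_congr (Submodule.topEquiv (R := ZMod p) (M := M)).toEquiv
    · exact card_mul_eq hinj hOp hC _ hBO h0
  rw [← hcardA, ← hmain]
  ring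

/-- Elements moving `Z` into `V`. -/
def moveInto (Z V : Subgroup G) [hVn : V.Normal] : Subgroup G where
  carrier := {g | ∀ z ∈ Z, ⁅z, g⁆ ∈ V}
  mul_mem' := by
    intro g h hg hh z hz
    have e : ⁅z, g * h⁆ = ⁅z, g⁆ * (g * ⁅z, h⁆ * g⁻¹) := by
      simp only [commutatorElement_def]
      group
    rw [e]
    exact mul_mem (hg z hz) (hVn.conj_mem _ (hh z hz) g)
  one_mem' := by
    intro z _
    simp [commutatorElement_def]
  inv_mem' := by
    intro g hg z hz
    have e : ⁅z, g⁻¹⁆ = g⁻¹ * (⁅z, g⁆)⁻¹ * g⁻¹⁻¹ := by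
      simp only [commutatorElement_def]
      group
    rw [e]
    exact hVn.conj_mem _ (inv_mem (hg z hz)) g⁻¹

/-- **S0619.** -/
theorem s0619 (hsep : IsPSolvable p G) (V : Subgroup G) [hVn : V.Normal] (hV : IsElementaryAbelian p V)
    (hO : pCore p (G ⧸ Subgroup.centralizer (V : Set G)) = ⊥) :
    ⁅omegaOne p (centerThompsonOf p (Subgroup.centralizer (V : Set G))), thompsonSubgroup p G⁆ ≤ V := by
  set C := Subgroup.centralizer (V : Set G) with hC
  set Z := omegaOne p (centerThompsonOf p C) with hZ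
  have hVC : V ≤ C := by
    intro x hx
    rw [hC, Subgroup.mem_centralizer_iff]
    intro h hh
    exact ea_comm hV hh hx
  have hJC : thompsonSubgroupOf p C ≤ C := thompsonOf_le C
  have hZC : Z ≤ Subgroup.centralizer (thompsonSubgroupOf p C : Set G) := by
    rw [hZ, omegaOne, Subgroup.closure_le]
    rintro x ⟨hx, -⟩
    exact hx.2
  have hZea : IsElementaryAbelian p Z := by
    apply ea_closure
    · rintro x ⟨hx, -⟩ y ⟨hy, -⟩
      exact Subgroup.mem_centralizer_iff.mp hy.2 x hx.1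
    · rintro x ⟨-, hx⟩
      exact hx
  have key : ∀ A ∈ maxElementaryAbelianSubgroups p G, ∀ z ∈ Z, ∀ a ∈ A, ⁅z, a⁆ ∈ V := by
    intro A hA
    have hcount := count_of_maxEA hsep V hV hO hA
    set D := A ⊓ C with hD
    have hDV : IsElementaryAbelian p (D ⊔ V) := by
      refine ea_sup (ea_of_le hA.1 inf_le_left) hV ?_
      intro a ha b hb
      exact (Subgroup.mem_centralizer_iff.mp ha.2 b hb).symm
    have hcardDV : Nat.card A ≤ Nat.card ↥(D ⊔ V) := by
      have h1 := FF.card_mul_card_le_card_sup_mul_card_inf D V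
      have h2 : D ⊓ V = V ⊓ A := by
        apply le_antisymm
        · rintro x ⟨hx, hxV⟩
          exact ⟨hxV, hx.1⟩
        · rintro x ⟨hxV, hx⟩
          exact ⟨⟨hx, hVC hxV⟩, hxV⟩
      rw [h2, ← hcount] at h1
      exact Nat.le_of_mul_le_mul_right h1 Nat.card_pos
    have hmaxDV : D ⊔ V ∈ maxElementaryAbelianSubgroups p G := ⟨hDV, fun B hB => (hA.2 B hB).trans hcardDV⟩
    have hDVC : D ⊔ V ≤ C := sup_le inf_le_right hVC
    have hDVJ : D ⊔ V ≤ thompsonSubgroupOf p C := by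
      intro x hx
      refine ⟨⟨x, hDVC hx⟩, ?_, rfl⟩
      exact maxEA_le_thompson (maxEA_subgroupOf hmaxDV hDVC) (Subgroup.mem_subgroupOf.mpr hx)
    have hVZ : V ≤ Z := by
      intro x hx
      refine Subgroup.subset_closure ⟨⟨hDVJ ((le_sup_right : V ≤ _) hx), ?_⟩, hV.2 x hx⟩
      refine Subgroup.mem_centralizer_iff.mpr fun j hj => ?_
      exact (Subgroup.mem_centralizer_iff.mp (hJC hj) x hx).symm
    have hDZ : ∀ d ∈ D, ∀ z ∈ Z, d * z = z * d := by
      intro d hd z hz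
      exact Subgroup.mem_centralizer_iff.mp (hZC hz) d (hDVJ ((le_sup_left : D ≤ _) hd))
    set Y := A ⊓ Subgroup.centralizer (Z : Set G) with hY
    have hDY : D ≤ Y := by
      intro d hd
      refine ⟨hd.1, Subgroup.mem_centralizer_iff.mpr fun z hz => ?_⟩
      exact (hDZ d hd z hz).symm
    have hYZ : IsElementaryAbelian p (Y ⊔ Z) := by
      refine ea_sup (ea_of_le hA.1 inf_le_left) hZea ?_
      intro a ha b hb
      exact (Subgroup.mem_centralizer_iff.mp ha.2 b hb).symm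
    have h1 := FF.card_mul_card_le_card_sup_mul_card_inf Y Z
    have h2 := hA.2 _ hYZ
    have h3 : Nat.card ↥(Y ⊓ Z) ≤ Nat.card ↥(Z ⊓ A) :=
      Subgroup.card_le_of_le (fun x hx => ⟨hx.2, hx.1.1⟩)
    have h4 : Nat.card D ≤ Nat.card Y := Subgroup.card_le_of_le hDY
    have h5 : Nat.card D * Nat.card Z ≤ Nat.card A * Nat.card ↥(Z ⊓ A) :=
      calc Nat.card D * Nat.card Z ≤ Nat.card Y * Nat.card Z := Nat.mul_le_mul_right _ h4
        _ ≤ _ := h1
        _ ≤ _ := Nat.mul_le_mul h2 h3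
    set S := V ⊔ (Z ⊓ A) with hS
    have hSZ : S ≤ Z := sup_le hVZ inf_le_left
    have h6 := FF.card_mul_card_le_card_sup_mul_card_inf V (Z ⊓ A)
    have h6' : V ⊓ (Z ⊓ A) = V ⊓ A := by
      apply le_antisymm
      · rintro x ⟨hx, -, hxA⟩
        exact ⟨hx, hxA⟩
      · rintro x ⟨hx, hxA⟩
        exact ⟨hx, hVZ hx, hxA⟩
    rw [h6'] at h6
    have hpos : 0 < Nat.card D * Nat.card ↥(V ⊓ A) := Nat.mul_pos Nat.card_pos Nat.card_pos
    have h7 : Nat.card Z ≤ Nat.card S := by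
      apply Nat.le_of_mul_le_mul_left _ hpos
      calc Nat.card D * Nat.card ↥(V ⊓ A) * Nat.card Z = (Nat.card D * Nat.card Z) * Nat.card ↥(V ⊓ A) := by ring
        _ ≤ (Nat.card A * Nat.card ↥(Z ⊓ A)) * Nat.card ↥(V ⊓ A) := Nat.mul_le_mul_right _ h5
        _ = (Nat.card A * Nat.card ↥(V ⊓ A)) * Nat.card ↥(Z ⊓ A) := by ring
        _ = Nat.card D * (Nat.card V * Nat.card ↥(Z ⊓ A)) := by rw [hcount]; ring
        _ ≤ Nat.card D * (Nat.card S * Nat.card ↥(V ⊓ A)) := Nat.mul_le_mul_left _ h6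
        _ = _ := by ring
    have hSeq : S = Z := Subgroup.eq_of_le_of_card_ge hSZ h7
    intro z hz a ha
    have hz' : z ∈ V ⊔ (Z ⊓ A) := by
      rw [← hS, hSeq]
      exact hz
    obtain ⟨v, hv, a', ha', rfl⟩ := Subgroup.mem_sup_of_normal_left.mp hz'
    have hcomm : a' * a = a * a' := ea_comm hA.1 ha'.2 ha
    have e : ⁅v * a', a⁆ = v * (a * v⁻¹ * a⁻¹) := by
      rw [commutatorElement_def]
      calc v * a' * a * (v * a')⁻¹ * a⁻¹ = v * (a' * a) * a'⁻¹ * v⁻¹ * a⁻¹ := by group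
        _ = v * (a * a') * a'⁻¹ * v⁻¹ * a⁻¹ := by rw [hcomm]
        _ = _ := by group
    rw [e]
    exact mul_mem hv (hVn.conj_mem _ (inv_mem hv) a)
  have hJ : thompsonSubgroup p G ≤ moveInto Z V := thompson_le fun A hA a ha z hz => key A hA z hz a ha
  rw [Subgroup.commutator_le]
  intro z hz g hg
  exact hJ hg z hz

end Cfsg.Agent.Lib.Offender
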